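import Mathlib
import Cfsg.Agent.Eo8.Fin

/-!
# Finite checks in `A₆`
-/

set_option autoImplicit false

namespace Cfsg.Agent.Eo8.F6

open Equiv

/-- `g` commutes with all members of `L` -/
def Cm (L : List (Perm (Fin 6))) (g : Perm (Fin 6)) : Prop := ∀ σ ∈ L, σ * g = g * σ

instance (L : List (Perm (Fin 6))) : DecidablePred (Cm L) := fun g =>
  inferInstanceAs (Decidable (∀ σ ∈ L, σ * g = g * σ))

/-- the centralizer of `L` in `A₆` -/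
def P (L : List (Perm (Fin 6))) : Subgroup A6 :=
  (Subgroup.centralizer {σ | σ ∈ L}).comap (alternatingGroup _).subtype

theorem mem_P {L : List (Perm (Fin 6))} {g : A6} : g ∈ P L ↔ Cm L g.1 := Subgroup.mem_centralizer_iff

instance (L : List (Perm (Fin 6))) : DecidablePred (· ∈ P L) := fun _ => decidable_of_iff _ mem_P.symm

theorem card_P (L : List (Perm (Fin 6))) : Nat.card (P L) =
    (Finset.univ.filter fun g : Perm (Fin 6) => Cm L g ∧ Perm.sign g = 1).card := by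
  rw [← Fintype.card_subtype, ← Nat.card_eq_fintype_card]
  exact Nat.card_congr
    ⟨fun g => ⟨g.1.1, g.2, g.1.2⟩, fun g => ⟨⟨g.1, g.2.2⟩, g.2.1⟩, fun _ => rfl, fun _ => rfl⟩

def s0 : Perm (Fin 6) := swap 4 5
def e1 : A6 := ⟨swap 0 1 * swap 2 3, Perm.mem_alternatingGroup.2 (by decide)⟩
def e2 : A6 := ⟨swap 0 2 * swap 1 3, Perm.mem_alternatingGroup.2 (by decide)⟩
def e3 : A6 := ⟨swap 0 1 * swap 4 5, Perm.mem_alternatingGroup.2 (by decide)⟩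
def y0 : A6 := ⟨swap 0 1 * swap 1 2, Perm.mem_alternatingGroup.2 (by decide)⟩
def w0 : A6 := ⟨swap 0 2 * swap 2 4 * swap 1 3 * swap 3 5, Perm.mem_alternatingGroup.2 (by decide)⟩
def x0 : A6 := ⟨swap 4 0 * swap 0 1 * swap 1 3 * swap 3 2, Perm.mem_alternatingGroup.2 (by decide)⟩

/-- the stabilizer of `{4, 5}` -/
def P1 : Subgroup A6 := P [s0]
/-- the stabilizer of `01|23|45` -/
def P2 : Subgroup A6 := P [e1.1 * s0]
/-- a Sylow 2-subgroup -/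
def D : Subgroup A6 := P [s0, e1.1]
/-- the four-group on `0, 1, 2, 3` -/
def A : Subgroup A6 := P [s0, e1.1, e2.1]

theorem index_of {K : Subgroup A6} {a b : ℕ} (h : Nat.card K = a) (e : b * a = 360) : K.index = b := by
  have := K.index_mul_card
  rw [h, card_A6, ← e] at this
  exact Nat.eq_of_mul_eq_mul_right (h ▸ Nat.card_pos) this

theorem card_P1 : Nat.card P1 = 24 := by rw [P1, card_P]; decide +kernel

theorem card_P2 : Nat.card P2 = 24 := by rw [P2, card_P]; decide +kernel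

theorem card_D : Nat.card D = 8 := by rw [D, card_P]; decide +kernel

theorem card_A : Nat.card A = 4 := by rw [A, card_P]; decide +kernel

set_option synthInstance.maxSize 2000 in
theorem P1_all : ∀ g : Perm (Fin 6), Cm [s0] g →
    (∀ a ∈ [e1.1, e2.1], ∃ b ∈ [e1.1, e2.1, e1.1 * e2.1], g * a = b * g) ∧
    (Cm [e1.1, e2.1] g ∨ ∃ h ∈ [1, y0, e2], (g * (h.1 * g * h.1⁻¹)) ^ 3 = 1 ∧
      g * (h.1 * g * h.1⁻¹) ≠ 1) ∧
    (Cm [e1.1] g → Perm.sign g = 1 → (Cm [e2.1] g → g = 1 ∨ g ∈ [e1.1, e2.1, e1.1 * e2.1]) ∧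
      (Cm [swap 0 2] g → g = 1 ∨ g = e2.1)) := by
  decide +kernel

theorem pair : ∀ i j k l : Fin 6, i ≠ j →
    (swap k l = swap i j → (k = i ∧ l = j) ∨ (k = j ∧ l = i)) ∧
    (({i, j} : Finset (Fin 6)) = {k, l} → (k = i ∧ l = j) ∨ (k = j ∧ l = i)) := by decide +kernel

/-- generators -/
def gn : Fin 4 → A6 := ![w0, y0, e2, e3]

/-- words moving `{4, 5}` to all pairs -/
def wd : List (List (Fin 4)) := [[], [0], [1, 0], [2, 0], [1, 1, 0], [2, 1, 0], [0, 1, 0],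
  [0, 1, 1, 0], [1, 2, 1, 0], [0, 2, 1, 0], [3, 0, 1, 0], [2, 0, 1, 0], [0, 0, 1, 0], [1, 0, 1, 1, 0],
  [2, 3, 0, 1, 0]]

theorem wd_pair : ∀ i j : Fin 6, i ≠ j → ∃ l ∈ wd,
    ((l.map fun k => (gn k).1).prod 4 = i ∧ (l.map fun k => (gn k).1).prod 5 = j) ∨
      ((l.map fun k => (gn k).1).prod 4 = j ∧ (l.map fun k => (gn k).1).prod 5 = i) := by
  decide +kernel

theorem gn_mem : ∀ k, Cm [s0] (gn k).1 ∨ Cm [e1.1 * s0] (gn k).1 := by decide +kernel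

theorem irr : ∀ a ∈ [e1.1, e2.1, e1.1 * e2.1], ∀ b ∈ [e1.1, e2.1, e1.1 * e2.1],
    a = b ∨ a = y0.1 * b * y0.1⁻¹ ∨ a = y0.1⁻¹ * b * y0.1 := by decide +kernel

theorem fix : ∀ i j : Fin 6, i ≠ j → Cm [swap i j] e1.1 → Cm [swap i j] e2.1 →
    (i = 4 ∧ j = 5) ∨ (i = 5 ∧ j = 4) := by
  decide +kernel

theorem small : y0.1 ^ 3 = 1 ∧ y0.1 ≠ 1 ∧ x0.1 ^ 5 = 1 ∧ x0.1 ≠ 1 ∧ e2.1 * x0.1 * e2.1⁻¹ = x0.1 ^ 4 ∧
    e2.1 ≠ 1 ∧ e1.1 * y0.1 ≠ y0.1 * e1.1 ∧ Cm [s0] y0.1 ∧ Cm [swap 0 2] e2.1 ∧ e2.1 * e2.1 = 1 ∧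
    ∀ a ∈ [e1.1, e2.1, e1.1 * e2.1], Cm [s0, e1.1, e2.1] a := by
  decide +kernel

end Cfsg.Agent.Eo8.F6
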