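import Mathlib
import Cfsg.Agent.PLocal.AmbSyl
import Cfsg.Agent.Solv.FrobeniusAction
import Cfsg.Agent.PLocal.CharP
import Cfsg.Agent.FGS.SecRank
import Cfsg.Agent.S0144

/-!
# Groups all of whose elements have order at most eight: definitions and basic facts

Conventions: `cm a b = a⁻¹ * (b * a * b⁻¹)` is the commutator used throughout, `𝐑[X] = O₂(X)`.
-/

set_option autoImplicit false
set_option linter.unusedSectionVars false

namespace Cfsg.Agent.Eo8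

open Subgroup Cfsg PLocal.Amb
open Cfsg.Agent.PLocal.CP (IsCharP)
open scoped MatrixGroups

universe u

/-- `O₂(X)` as a subgroup of the ambient group -/
scoped notation:max "𝐑[" X "]" => Cfsg.pCoreOf 2 X

/-- centralizer of an element -/
scoped notation:max "𝐜[" a "]" => Subgroup.centralizer (Singleton.singleton a : Set _)

/-- All elements have order at most eight. -/
def P8 (G : Type*) [Group G] : Prop := ∀ g : G, orderOf g ≤ 8

/-- The alternating group of degree five. -/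
abbrev A5 := alternatingGroup (Fin 5)
/-- The alternating group of degree six. -/
abbrev A6 := alternatingGroup (Fin 6)
/-- The alternating group of degree seven. -/
abbrev A7 := alternatingGroup (Fin 7)
/-- The simple group of order 168. -/
abbrev L32 := SL(3, ZMod 2)

/-- `X` is `PSL(3, 4)`. -/
def IsL34 (X : Type*) [Group X] : Prop :=
  ∃ (F : Type) (_ : Field F) (_ : Fintype F), Fintype.card F = 4 ∧ Nonempty (X ≃* PSL(3, F))

/-- the simple groups of the class -/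
def Known (X : Type*) [Group X] : Prop :=
  Nonempty (X ≃* A5) ∨ Nonempty (X ≃* A6) ∨ Nonempty (X ≃* L32) ∨ Nonempty (X ≃* A7) ∨ IsL34 X

/-- the classification is known up to order `n` -/
def IH (n : ℕ) : Prop :=
  ∀ (L : Type u) [Group L] [Finite L] [IsSimpleGroup L], ¬ IsMulCommutative L → P8 L →
    Nat.card L ≤ n → Known L

/-- Every nontrivial normal subgroup has an element of order five or seven. -/
def N57 (X : Type*) [Group X] : Prop :=
  ∀ M : Subgroup X, M.Normal → M ≠ ⊥ → ∃ x ∈ M, orderOf x = 5 ∨ orderOf x = 7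

/-- A Frobenius subgroup with kernel of exponent `q` and cyclic complement of order `n`
(the same as `O6.FD`). -/
def FD (X : Type*) [Group X] (q n : ℕ) : Prop :=
  ∃ (R : Subgroup X) (g : X), (∃ r ∈ R, r ≠ 1) ∧ (∀ r ∈ R, r ^ q = 1) ∧
    (∀ r ∈ R, g * r * g⁻¹ ∈ R) ∧ g ^ n = 1 ∧
    ∀ i < n, 0 < i → ∀ r ∈ R, r * g ^ i = g ^ i * r → r = 1

/-- the almost simple groups of the class -/
def AS (X : Type*) [Group X] : Prop :=
  Nonempty (X ≃* A5) ∨ Nonempty (X ≃* Equiv.Perm (Fin 5)) ∨ Nonempty (X ≃* A6) ∨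
    Nonempty (X ≃* Equiv.Perm (Fin 6)) ∨
    (N57 X ∧ ∃ L : Subgroup X, L.index = 2 ∧ Nonempty (L ≃* A6) ∧ ∃ g, g ∉ L ∧ orderOf g = 8) ∨
    Nonempty (X ≃* L32) ∨ (N57 X ∧ FD X 7 6 ∧ ¬ 5 ∣ Nat.card X) ∨ Nonempty (X ≃* A7) ∨
    (N57 X ∧ ∃ L : Subgroup X, L.Normal ∧ (L = ⊤ ∨ L.index = 2) ∧ IsL34 L)

/-- Sylow 2-subgroups of order at most eight, 2-rank at most two -/
def Rk (X : Type*) [Group X] : Prop :=
  ¬ 16 ∣ Nat.card X ∧ ∀ A : Subgroup X, (∀ a ∈ A, a * a = 1) → Nat.card A ≤ 4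

variable {G : Type*} [Group G]

/-- the commutator `a⁻¹ * a ^ b` -/
def cm (a b : G) : G := a⁻¹ * (b * a * b⁻¹)

/-- `M / Q ≅ X` with `Q` a 2-group -/
structure Ext (X : Type*) [Group X] (M Q : Subgroup G) : Prop where
  p8 : P8 G
  two : IsPGroup 2 Q
  le : Q ≤ M
  hom : ∃ π : M →* X, Function.Surjective π ∧ ∀ m, π m = 1 ↔ (m : G) ∈ Q

/-- what is used about a nonsolvable 2-local subgroup in general -/
structure NSl (M Q : Subgroup G) : Prop where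
  p8 : P8 G
  two : IsPGroup 2 Q
  le : Q ≤ M
  nQ : M ≤ 𝐍[Q]
  ne : Q ≠ ⊥
  ns : ¬ Group.IsSolvable M
  n57 : ∀ K ≤ M, M ≤ 𝐍[K] → ¬ K ≤ Q → ∃ x ∈ K, orderOf x = 5 ∨ orderOf x = 7
  rk : ∀ K H : Subgroup G, H ≤ M → IsPGroup 2 H → H ≤ 𝐍[K] → (∀ h ∈ H, h * h ∈ K) → Q ⊓ H ≤ K →
    K.relIndex H ≤ 4

/-- `V` is a nontrivial elementary abelian normal subgroup of `M` central in `Q` -/
structure ZV (M Q V : Subgroup G) : Prop where
  VQ : V ≤ Q
  V1 : V ≠ ⊥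
  nV : M ≤ 𝐍[V]
  cV : Q ≤ 𝐂[V]
  sq : ∀ v ∈ V, v * v = 1

/-- characteristic 2 type -/
def C2 (G : Type*) [Group G] : Prop := ∀ B : Subgroup G, IsPGroup 2 B → B ≠ ⊥ → IsCharP 2 𝐍[B]

/-- `M` is a maximal 2-local subgroup -/
def Mxl (M : Subgroup G) : Prop := ∀ U : Subgroup G, IsPGroup 2 U → U ≠ ⊥ → M ≤ 𝐍[U] → 𝐍[U] ≤ M

/-- a nonsolvable maximal 2-local subgroup of a group of characteristic 2 type -/
structure Mx (M Q V : Subgroup G) : Prop extends NSl M Q, ZV M Q V where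
  c2 : C2 G
  mx : Mxl M

/-- `M / Q` is `A₆` or `L₃(2)` -/
structure S4T (M Q V R : Subgroup G) (z y : G) : Prop extends NSl M Q, ZV M Q V where
  big : 8 ≤ Nat.card V
  zV : z ∈ V
  z1 : z ≠ 1
  trans : ∀ v ∈ V, v ≠ 1 → ∃ m ∈ M, m * z * m⁻¹ = v
  R2 : IsPGroup 2 R
  QR : Q ≤ R
  RM : R ≤ M ⊓ 𝐜[z]
  nR : M ⊓ 𝐜[z] ≤ 𝐍[R]
  core : ∀ B : Subgroup G, IsPGroup 2 B → B ≤ M ⊓ 𝐜[z] → M ⊓ 𝐜[z] ≤ 𝐍[B] → B ≤ R
  six : 6 * Nat.card R ≤ Nat.card ↥(M ⊓ 𝐜[z])
  y3 : orderOf y = 3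
  yM : y ∈ M ⊓ 𝐜[z]
  irr : ∀ B, Q ≤ B → B ≤ R → y ∈ 𝐍[B] → B = Q ∨ B = R
  act : ∃ r ∈ R, cm r y ∉ Q
  fix : V ⊓ 𝐂[R] ≤ zpowers z
  rk1 : ∀ U ≤ Q, M ⊓ 𝐜[z] ≤ 𝐍[U] → (∀ u ∈ U, ∀ q ∈ Q, cm u q ∈ zpowers z) → U ≤ 𝐂[Q]
  par : ∀ S, IsSyl 2 S M → ∃ X₁ X₂ : Subgroup G, S ≤ X₁ ∧ S ≤ X₂ ∧ Group.IsSolvable X₁ ∧
    Group.IsSolvable X₂ ∧ X₁ ⊔ X₂ = M
  eg : Q = V → 𝐍[V] ≤ M → ∀ S T : Subgroup G, IsSyl 2 S M → IsPGroup 2 T → S ≤ T →
    SectionalPRankLE 2 4 T

/-- `M / Q` is `A₅`, `S₅` or `A₆`: involutions act freely on `V` -/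
structure Hf (M Q : Subgroup G) : Prop where
  half : ∀ V, ZV M Q V → ∀ a ∈ M, a ∉ Q → a * a ∈ Q → Nat.card ↥(V ⊓ 𝐜[a]) ^ 2 ≤ Nat.card V
  mod : ∀ V : Subgroup G, V ≤ Q → M ≤ 𝐍[V] → Nat.card V % 15 = 1

/-- `M / Q` is `A₅`, `T` is a Sylow 2-subgroup of `M` normalized by `β` -/
structure A5T (M Q T : Subgroup G) (β m : G) : Prop extends NSl M Q, Hf M Q where
  syl : IsSyl 2 T M
  b3 : orderOf β = 3
  bM : β ∈ M
  bT : β ∈ 𝐍[T]
  cb : T ⊓ 𝐜[β] ≤ Q
  mM : m ∈ M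
  mb : m * β * m⁻¹ = β⁻¹
  gen : T ⊔ cj(m, T) = M

/-- moreover `V` is the natural `SL₂(4)`-module, `Z = C_V(T)` -/
structure NT (M Q V T Z : Subgroup G) (β : G) : Prop extends ZV M Q V where
  c16 : Nat.card V = 16
  ZV : Z ≤ V
  c4 : Nat.card Z = 4
  bZ : β ∈ 𝐍[Z]
  TZ : T ≤ 𝐂[Z]
  fix : ∀ a ∈ T, a ∉ Q → V ⊓ 𝐜[a] ≤ Z
  com : ∀ a ∈ T, a ∉ Q → ∀ w ∈ Z, ∃ v ∈ V, cm v a = w
  trans : ∀ z ∈ Z, z ≠ 1 → ∀ v ∈ V, v ≠ 1 → ∃ m ∈ M, m * z * m⁻¹ = v
  stab : ∀ z ∈ Z, z ≠ 1 → M ⊓ 𝐜[z] ≤ T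
  hyp : ∀ B ≤ V, Nat.card B = 8 → ∃ m ∈ M, cj(m, Z) ≤ B

theorem mem_c1 {a c : G} : c ∈ 𝐜[a] ↔ c * a = a * c := mem_centralizer_singleton_iff

theorem mem_cent {U : Subgroup G} {c : G} : c ∈ 𝐂[U] ↔ ∀ u ∈ U, u * c = c * u :=
  mem_centralizer_iff

theorem comm_of_sq {a b : G} (ha : a * a = 1) (hb : b * b = 1) (h : a * b * (a * b) = 1) :
    a * b = b * a := by
  rw [eq_inv_of_mul_eq_one_left h, mul_inv_rev, inv_eq_of_mul_eq_one_left ha,
    inv_eq_of_mul_eq_one_left hb]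

theorem eq_one_of_pow {g : G} {m n : ℕ} (h1 : g ^ m = 1) (h2 : g ^ n = 1)
    (h : m.Coprime n := by norm_num) : g = 1 := by
  have := pow_gcd_eq_one.2 ⟨h1, h2⟩
  rwa [h, pow_one] at this

theorem ord_prime {g : G} (p : ℕ) (h1 : g ^ p = 1) (h2 : g ≠ 1) (hp : p.Prime := by norm_num) :
    orderOf g = p :=
  haveI := Fact.mk hp
  orderOf_eq_prime h1 h2

theorem cm_eq_one {a b : G} : cm a b = 1 ↔ a * b = b * a := by
  rw [cm, inv_mul_eq_one, eq_mul_inv_iff_mul_eq]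

theorem cm_conj (g a b : G) : cm (g * a * g⁻¹) (g * b * g⁻¹) = g * cm a b * g⁻¹ := by
  simp only [cm]; group

theorem map_cm {H : Type*} [Group H] (f : G →* H) (a b : G) : f (cm a b) = cm (f a) (f b) := by
  simp only [cm, map_mul, map_inv]

theorem cm_mem {V : Subgroup G} {a b : G} (ha : a ∈ V) (hb : b ∈ 𝐍[V]) : cm a b ∈ V :=
  mul_mem (inv_mem ha) (conj_mem_of_mem_normalizer hb ha)

theorem cm_mem' {V : Subgroup G} {a b : G} (ha : a ∈ 𝐍[V]) (hb : b ∈ V) : cm a b ∈ V := by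
  have := mul_mem (inv_conj_mem_of_mem_normalizer ha hb) (inv_mem hb)
  simpa only [cm, mul_assoc] using this

theorem P8.of_inj {H : Type*} [Group H] (h : P8 G) (f : H →* G) (hf : Function.Injective f) :
    P8 H := fun x => orderOf_injective f hf x ▸ h (f x)

theorem P8.sub (h : P8 G) (K : Subgroup G) : P8 K := h.of_inj K.subtype K.subtype_injective

variable [Finite G]

theorem P8.of_surj {H : Type*} [Group H] (h : P8 G) (f : G →* H) (hf : Function.Surjective f) :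
    P8 H := fun x => by
  obtain ⟨g, rfl⟩ := hf x
  exact (Nat.le_of_dvd (orderOf_pos g) (orderOf_map_dvd f g)).trans (h g)

theorem P8.quot (h : P8 G) (N : Subgroup G) [N.Normal] : P8 (G ⧸ N) :=
  h.of_surj _ (QuotientGroup.mk'_surjective N)

theorem P8.pow_of (h : P8 G) {g : G} {m : ℕ}
    (hm : ∀ k, 0 < k → k ≤ 8 → orderOf g = k → k ∣ m) : g ^ m = 1 :=
  orderOf_dvd_iff_pow_eq_one.1 (hm _ (orderOf_pos g) (h g) rfl)

/-- commuting elements of coprime orders -/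
theorem P8.mul_le (h : P8 G) {x y : G} (c : x * y = y * x)
    (hc : (orderOf x).Coprime (orderOf y)) : orderOf x * orderOf y ≤ 8 :=
  (Commute.orderOf_mul_eq_mul_orderOf_of_coprime c hc) ▸ h (x * y)

theorem P8.comm_aux (h : P8 G) {x y : G} {a b : ℕ} (hb : a * b = 840)
    (hc : (orderOf x).Coprime b) (h8 : ∀ k, k ∣ b → orderOf x * k ≤ 8 → k = 1)
    (c : x * y = y * x) : y ^ a = 1 := by
  have h1 : orderOf (y ^ a) ∣ b := orderOf_dvd_of_pow_eq_one (by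
    rw [← pow_mul, hb]
    exact h.pow_of fun k _ _ _ => by interval_cases k <;> norm_num)
  exact orderOf_eq_one_iff.1 (h8 _ h1 (h.mul_le (Commute.pow_right c a) (hc.coprime_dvd_right h1)))

theorem P8.c5 (h : P8 G) {x y : G} (hx : orderOf x = 5) (c : x * y = y * x) : y ^ 5 = 1 :=
  h.comm_aux (b := 168) rfl (by rw [hx]; norm_num) (fun k h1 h2 => by
    rw [hx] at h2
    have := Nat.pos_of_dvd_of_pos h1 (by norm_num); omega) c

theorem P8.c7 (h : P8 G) {x y : G} (hx : orderOf x = 7) (c : x * y = y * x) : y ^ 7 = 1 :=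
  h.comm_aux (b := 120) rfl (by rw [hx]; norm_num) (fun k h1 h2 => by
    rw [hx] at h2
    have := Nat.pos_of_dvd_of_pos h1 (by norm_num); omega) c

/-- elements commuting with an element of order four are 2-elements -/
theorem P8.c4 (h : P8 G) {x y : G} (hx : orderOf x = 4) (c : x * y = y * x) : y ^ 8 = 1 :=
  h.comm_aux (b := 105) rfl (by rw [hx]; norm_num) (fun k h1 h2 => by
    rw [hx] at h2
    have := Nat.pos_of_dvd_of_pos h1 (by norm_num)
    have : k ≤ 2 := by omega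
    interval_cases k <;> omega) c

/-- elements commuting with an element of order three -/
theorem P8.c3 (h : P8 G) {x y : G} (hx : orderOf x = 3) (c : x * y = y * x) : y ^ 6 = 1 := by
  have h1 : y ^ 24 = 1 := h.comm_aux (b := 35) rfl (by rw [hx]; norm_num) (fun k h1 h2 => by
    rw [hx] at h2
    have := Nat.pos_of_dvd_of_pos h1 (by norm_num)
    have : k ≤ 2 := by omega
    interval_cases k <;> omega) c
  have h2 : orderOf (y ^ 3) ∣ 8 := orderOf_dvd_of_pow_eq_one (by rw [← pow_mul, h1])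
  have h3 := h.mul_le (Commute.pow_right c 3)
    (by rw [hx]; exact Nat.Coprime.coprime_dvd_right h2 (by norm_num))
  rw [hx] at h3
  have h4 := orderOf_pos (y ^ 3)
  rw [show 6 = 3 * 2 by norm_num, pow_mul]
  refine orderOf_dvd_iff_pow_eq_one.1 ?_
  have : orderOf (y ^ 3) ≤ 2 := by omega
  interval_cases orderOf (y ^ 3) <;> norm_num

/-- elements commuting with an involution -/
theorem P8.c2 (h : P8 G) {x y : G} (hx : orderOf x = 2) (c : x * y = y * x) : y ^ 24 = 1 :=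
  h.comm_aux (b := 35) rfl (by rw [hx]; norm_num) (fun k h1 h2 => by
    rw [hx] at h2
    have := Nat.pos_of_dvd_of_pos h1 (by norm_num)
    have : k ≤ 4 := by omega
    interval_cases k <;> omega) c

theorem P8.pow_p (h : P8 G) {p q : ℕ} (hp : p.Prime) (hq : ∀ k, p ^ k ≤ 8 → p ^ k ∣ q)
    {Q : Subgroup G} (hQ : IsPGroup p Q) {g : G} (hg : g ∈ Q) : g ^ q = 1 := by
  obtain ⟨n, e⟩ := isPGroup_iff.1 hQ g hg
  obtain ⟨k, -, hk⟩ := (Nat.dvd_prime_pow hp).1 (orderOf_dvd_of_pow_eq_one e)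
  exact orderOf_dvd_iff_pow_eq_one.1 (hk ▸ hq k (hk ▸ h g))

theorem P8.three (h : P8 G) {Q : Subgroup G} (hQ : IsPGroup 3 Q) {g : G} (hg : g ∈ Q) :
    g ^ 3 = 1 :=
  h.pow_p (by norm_num) (fun k hk => by
    have : k < 2 := (Nat.pow_lt_pow_iff_right (a := 3) (by norm_num)).1 (by omega)
    interval_cases k <;> norm_num) hQ hg

/-- a 2-element commuting with an element of order three -/
theorem P8.sq3 (h : P8 G) {y a : G} (hy : orderOf y = 3) {Q : Subgroup G} (hQ : IsPGroup 2 Q)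
    (ha : a ∈ Q) (c : a * y = y * a) : a * a = 1 := by
  obtain ⟨n, e⟩ := isPGroup_iff.1 hQ a ha
  have h1 := pow_gcd_eq_one.2 ⟨e, h.c3 hy c.symm⟩
  rw [show 6 = 3 * 2 by norm_num, Nat.Coprime.gcd_mul_left_cancel_right _
    (Nat.Coprime.pow_right _ (by norm_num))] at h1
  rw [← pow_two]
  exact orderOf_dvd_iff_pow_eq_one.1 ((orderOf_dvd_of_pow_eq_one h1).trans (Nat.gcd_dvd_right _ _))

/-- 2-subgroups of the centralizer of an element of order three are abelian -/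
theorem P8.comm3 (h : P8 G) {y a b : G} (hy : orderOf y = 3) {Q : Subgroup G} (hQ : IsPGroup 2 Q)
    (ha : a ∈ Q) (hb : b ∈ Q) (ca : a * y = y * a) (cb : b * y = y * b) : a * b = b * a :=
  comm_of_sq (h.sq3 hy hQ ha ca) (h.sq3 hy hQ hb cb) (h.sq3 hy hQ (mul_mem ha hb)
    (by rw [mul_assoc, cb, ← mul_assoc, ca, mul_assoc]))

/-- elements of order five or seven centralize no 2-element -/
theorem P8.fpf (h : P8 G) {x a : G} (hx : orderOf x = 5 ∨ orderOf x = 7) {Q : Subgroup G}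
    (hQ : IsPGroup 2 Q) (ha : a ∈ Q) (c : a * x = x * a) : a = 1 := by
  obtain ⟨n, e⟩ := isPGroup_iff.1 hQ a ha
  rcases hx with hx | hx
  · exact eq_one_of_pow e (h.c5 hx c.symm) (Nat.Coprime.pow_left _ (by norm_num))
  · exact eq_one_of_pow e (h.c7 hx c.symm) (Nat.Coprime.pow_left _ (by norm_num))

theorem P8.prime_le (h : P8 G) {p : ℕ} (hp : p.Prime) (hd : p ∣ Nat.card G) :
    p = 2 ∨ p = 3 ∨ p = 5 ∨ p = 7 := by
  have := Fact.mk hp
  obtain ⟨g, hg⟩ := exists_prime_orderOf_dvd_card' p hd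
  have := hg ▸ h g
  interval_cases p <;> first | omega | exact absurd hp (by norm_num)

theorem solv23 (h : ∀ s : ℕ, s.Prime → s ∣ Nat.card G → s = 2 ∨ s = 3) : Group.IsSolvable G := by
  have h0 : Nat.card G ≠ 0 := Nat.card_pos.ne'
  obtain ⟨a, m, hm, e⟩ := Nat.exists_eq_pow_mul_and_not_dvd h0 2 (by norm_num)
  have hb := Nat.eq_prime_pow_of_unique_prime_dvd (n := m) (p := 3) (by rintro rfl; simp at hm)
    fun {s} hs hd => (h s hs (e ▸ hd.mul_left _)).resolve_left (by rintro rfl; exact hm hd)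
  exact S0144.result 2 3 a _ Nat.prime_two Nat.prime_three (by rw [e, ← hb])

theorem P8.exists57 (h : P8 G) (hs : ¬ Group.IsSolvable G) :
    ∃ x : G, orderOf x = 5 ∨ orderOf x = 7 := by
  by_contra! hc
  refine hs (solv23 fun s hp hd => ?_)
  have := Fact.mk hp
  obtain ⟨g, hg⟩ := exists_prime_orderOf_dvd_card' s hd
  rcases h.prime_le hp hd with e | e | rfl | rfl
  · exact Or.inl e
  · exact Or.inr e
  · exact absurd hg (hc g).1
  · exact absurd hg (hc g).2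

theorem P8.no57 (h : P8 G) {t x : G} (ht : orderOf t = 2) (hx : x ∈ 𝐜[t]) :
    ¬ (orderOf x = 5 ∨ orderOf x = 7) := fun e => by
  have := h.fpf e (isPGroup_zpowers (p := 2) (x := t) ⟨1, by
    rw [pow_one, ← ht, pow_orderOf_eq_one]⟩) (mem_zpowers t) (mem_c1.1 hx).symm
  rw [this, orderOf_one] at ht
  omega

theorem P8.solv_cent (h : P8 G) {t : G} (ht : orderOf t = 2) : Group.IsSolvable 𝐜[t] := by
  by_contra hs
  obtain ⟨x, hx⟩ := (h.sub _).exists57 hs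
  exact h.no57 ht x.2 (by simpa only [Subgroup.orderOf_coe] using hx)

/-- Lifting elements of order three. -/
theorem P8.lift3 (h : P8 G) {X : Type*} [Group X] (f : G →* X) {g : G} (h3 : orderOf (f g) = 3) :
    orderOf (g ^ 4) = 3 ∧ f (g ^ 4) = f g := by
  have h1 : f g ^ 3 = 1 := h3 ▸ pow_orderOf_eq_one (f g)
  have h2 : f (g ^ 4) = f g := by rw [map_pow, pow_succ, h1, one_mul]
  have h4 := h3 ▸ orderOf_map_dvd f g
  have h6 : g ^ 6 = 1 := h.pow_of fun k _ _ e => by rw [e] at h4; interval_cases k <;> omega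
  refine ⟨ord_prime 3 (by rw [← pow_mul, show 4 * 3 = 6 * 2 by norm_num, pow_mul, h6, one_pow])
    fun e => ?_, h2⟩
  rw [e, map_one] at h2
  rw [← h2, orderOf_one] at h3
  omega

/-- Lifting elements of order five or seven. -/
theorem P8.lift57 (h : P8 G) {X : Type*} [Group X] (f : G →* X) {g : G} {p : ℕ}
    (hp : p = 5 ∨ p = 7) (h5 : orderOf (f g) = p) : orderOf g = p := by
  have h4 := h5 ▸ orderOf_map_dvd f g
  have h1 := h g
  have h2 := orderOf_pos g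
  rcases hp with rfl | rfl <;> omega

end Cfsg.Agent.Eo8
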