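import Mathlib
import Cfsg.Agent.Eo8.Defs
import Cfsg.Agent.S0058
import Cfsg.Agent.S0022

/-!
# Short general lemmas
-/

set_option autoImplicit false
set_option linter.unusedSectionVars false

namespace Cfsg.Agent.Eo8

open Subgroup Cfsg PLocal.Amb
open Cfsg.Agent.PLocal.CP (IsCharP)
open scoped MatrixGroups

universe u

variable {G : Type*} [Group G] [Finite G]

/-- `q ↦ cm q x` is injective on `Q`, hence bijective. -/
theorem le_of_fpf {Q V : Subgroup G} {x : G} (hx : x ∈ 𝐍[Q]) (hf : ∀ q ∈ Q, q * x = x * q → q = 1)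
    (h : ∀ q ∈ Q, cm q x ∈ V) : Q ≤ V := by
  intro q hq
  obtain ⟨w, e⟩ := Finite.injective_iff_surjective.1 (show Function.Injective
    (fun w : Q => (⟨cm w x, cm_mem w.2 hx⟩ : Q)) from fun v w e => Subtype.ext (mul_inv_eq_one.1
      (hf _ (mul_mem v.2 (inv_mem w.2)) (by
        have e' : cm (v : G) x = cm (w : G) x := congrArg Subtype.val e
        calc _ = v * cm (w : G) x * x * (w : G)⁻¹ := by simp only [cm]; group
          _ = _ := by rw [← e']; simp only [cm]; group)))) ⟨q, hq⟩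
  exact (show cm (w : G) x = q from congrArg Subtype.val e) ▸ h w w.2

/-- A Sylow 3-subgroup of `X` has exponent 3 (`P8.three`); take a subgroup of order 9. -/
theorem P8.exists_e9 (h : P8 G) {X : Subgroup G} (h9 : 9 ∣ Nat.card X) :
    ∃ a ∈ X, ∃ b ∈ X, orderOf a = 3 ∧ orderOf b = 3 ∧ a * b = b * a ∧ b ∉ zpowers a := by
  have : Fact (Nat.Prime 3) := ⟨Nat.prime_three⟩
  obtain ⟨K, hK⟩ := Sylow.exists_subgroup_card_pow_prime (G := X) 3 (n := 2) h9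
  rw [← card_map_of_injective X.subtype_injective] at hK
  have le := map_subtype_le K
  generalize K.map X.subtype = K at hK le
  have o : ∀ a ∈ K, a ≠ 1 → orderOf a = 3 := fun a ha => ord_prime 3 (h.three (.of_card hK) ha)
  have ex : ∀ B : Subgroup G, Nat.card B < 9 → ∃ b ∈ K, b ∉ B := fun B hB => by
    by_contra! k
    have := card_le_of_le (show K ≤ B from k)
    omega
  obtain ⟨a, ha, a1⟩ := ex ⊥ (by simp)
  obtain ⟨b, hb, b1⟩ := ex (zpowers a) (by rw [Nat.card_zpowers, o a ha a1]; norm_num)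
  exact ⟨a, le ha, b, le hb, o a ha a1, o b hb fun e => b1 (e ▸ one_mem _), congrArg Subtype.val
    ((IsPGroup.isMulCommutative_of_card_eq_prime_sq hK).is_comm.comm ⟨a, ha⟩ ⟨b, hb⟩), b1⟩

/-- `S0058` for the noncyclic group `⟨a, b⟩` of order 9 (its elements are `a ^ i * b ^ j`). -/
theorem le_of_e9 {R K : Subgroup G} (hR : IsPGroup 2 R) {a b : G} (ha : orderOf a = 3)
    (hb : orderOf b = 3) (c : a * b = b * a) (hn : b ∉ zpowers a) (na : a ∈ 𝐍[R]) (nb : b ∈ 𝐍[R])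
    (h : ∀ i j : ℕ, a ^ i * b ^ j ≠ 1 → R ⊓ 𝐜[a ^ i * b ^ j] ≤ K) : R ≤ K := by
  have : Fact (Nat.Prime 3) := ⟨Nat.prime_three⟩
  have cm : Commute a b := c
  have key : ∀ x ∈ zpowers a ⊔ zpowers b, ∃ i j : ℕ, x = a ^ i * b ^ j := fun x hx => by
    obtain ⟨u, hu, v, hv, rfl⟩ := (mem_sup_of_le_normalizer_right (zpowers_le.2
      (centralizer_le_normalizer' _ (by rw [centralizer_zpowers]; exact mem_c1.2 c)))).1 hx
    obtain ⟨i, rfl⟩ := mem_powers_iff_mem_zpowers.2 hu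
    obtain ⟨j, rfl⟩ := mem_powers_iff_mem_zpowers.2 hv
    exact ⟨i, j, rfl⟩
  have : IsMulCommutative ↥(zpowers a ⊔ zpowers b) := ⟨⟨fun x y => Subtype.ext (by
    obtain ⟨i, j, e⟩ := key x x.2
    obtain ⟨k, l, e'⟩ := key y y.2
    rw [coe_mul, coe_mul, e, e']
    exact (((Commute.refl a).pow_pow i k).mul_right (cm.pow_pow i l)).mul_left
      ((cm.symm.pow_pow j k).mul_right ((Commute.refl b).pow_pow j l)))⟩⟩
  have p3 : IsPGroup 3 ↥(zpowers a ⊔ zpowers b) := isPGroup_iff.2 fun x hx => by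
    obtain ⟨i, j, rfl⟩ := key x hx
    exact ⟨1, by rw [pow_one, (cm.pow_pow i j).mul_pow, pow_right_comm, pow_right_comm b,
      ← ha, pow_orderOf_eq_one, ha, ← hb, pow_orderOf_eq_one, one_pow, one_pow, one_mul]⟩
  rw [← S0058.result (zpowers a ⊔ zpowers b) R (fun hc => hn ?_)
    (sup_le (zpowers_le.2 na) (zpowers_le.2 nb)) (IsPGroup.coprime_card_of_ne 3 2 (by norm_num) _ _ p3 hR)]
  · refine iSup₂_le fun x hx => ?_
    obtain ⟨i, j, rfl⟩ := key x hx.1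
    exact h i j hx.2
  · obtain ⟨k, e⟩ := Solv.Frob.mem_zpowers_of_orderOf_dvd (A := ↥(zpowers a ⊔ zpowers b))
      (x := ⟨a, mem_sup_left (mem_zpowers a)⟩) (y := ⟨b, mem_sup_right (mem_zpowers b)⟩)
      (by rw [orderOf_mk, orderOf_mk, ha, hb])
    exact ⟨k, congrArg Subtype.val e⟩

/-- Frattini argument: `⟨y⟩` is a Sylow subgroup of `R ⊔ ⟨y⟩`, which is normalized by `t`. -/
theorem exists_norm {R : Subgroup G} (hR : IsPGroup 2 R) {y t : G} {p : ℕ} (hp : p.Prime)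
    (p2 : p ≠ 2) (hy : orderOf y = p) (ny : y ∈ 𝐍[R]) (nt : t ∈ 𝐍[R]) (k : ℕ)
    (e : (y ^ k)⁻¹ * (t * y * t⁻¹) ∈ R) : ∃ r ∈ R, r * t * y * (r * t)⁻¹ = y ^ k := by
  have := Fact.mk hp
  have tr : ∀ {P : Subgroup G}, IsPGroup p P → ∀ x ∈ R, x ∈ P → x = 1 := fun hP x h1 h2 =>
    disjoint_def.1 (IsPGroup.disjoint_of_ne 2 p p2.symm _ _ hR hP) h1 h2
  have yp : y ^ p ^ 1 = 1 := by rw [pow_one, ← hy, pow_orderOf_eq_one]
  have hS : IsSyl p (zpowers y) (zpowers y ⊔ R) := ⟨le_sup_left, isPGroup_zpowers ⟨1, yp⟩,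
    fun P hP h1 h2 x hx => by
      obtain ⟨w, hw, r, hr, rfl⟩ := (mem_sup_of_le_normalizer_right (zpowers_le.2 ny)).1 (h2 hx)
      rwa [tr hP r hr ((mul_mem_cancel_left (h1 hw)).1 hx), mul_one]⟩
  obtain ⟨g, hg, l⟩ := hS.exists_cj_le (isPGroup_zpowers (x := t * y * t⁻¹) ⟨1, by
    rw [conj_pow, yp, mul_one, mul_inv_cancel]⟩) (zpowers_le.2 (by
      rw [← mul_inv_cancel_left (y ^ k) (t * y * t⁻¹)]
      exact mul_mem_sup (pow_mem (mem_zpowers y) k) e))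
  obtain ⟨w, hw, r, hr, rfl⟩ := (mem_sup_of_le_normalizer_right (zpowers_le.2 ny)).1 hg
  refine ⟨r, hr, (inv_mul_eq_one.1 (tr hS.pgrp _ ?_ (mul_mem (inv_mem (pow_mem (mem_zpowers y) k)) ?_))).symm⟩
  · convert mul_mem (mul_mem (inv_conj_mem_of_mem_normalizer (pow_mem ny k) hr) e) (inv_mem hr) using 1
    group
  · convert mul_mem (mul_mem (inv_mem hw) (l (conj_mem_cj _ (mem_zpowers _)))) hw using 1
    group

/-- `exists_norm` with `k = 1`; `r * t` lies in the 2-group `R ⊔ ⟨t⟩`, use `P8.sq3`. -/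
theorem P8.k12 (h : P8 G) {R : Subgroup G} (hR : IsPGroup 2 R) {y t : G} (hy : orderOf y = 3)
    (ny : y ∈ 𝐍[R]) (nt : t ∈ 𝐍[R]) (t2 : ∃ k : ℕ, t ^ 2 ^ k ∈ R) (e : cm y t ∈ R) :
    ∃ r ∈ R, r * t * y = y * (r * t) ∧ r * t * (r * t) = 1 ∧
      ∀ d ∈ R, d * y = y * d → d * (r * t) = r * t * d := by
  obtain ⟨r, hr, e'⟩ := exists_norm hR Nat.prime_three (by norm_num) hy ny nt 1 (by rwa [pow_one])
  obtain ⟨k, hk⟩ := t2
  obtain ⟨l, hl⟩ := isPGroup_iff.1 hR _ hk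
  have hQ := isPGroup_sup (isPGroup_zpowers ⟨k + l, by rw [pow_add, pow_mul, hl]⟩) hR (zpowers_le.2 nt)
  have m : r * t ∈ zpowers t ⊔ R := mul_mem (mem_sup_right hr) (mem_sup_left (mem_zpowers t))
  rw [pow_one, mul_inv_eq_iff_eq_mul] at e'
  exact ⟨r, hr, e', h.sq3 hy hQ m e', fun d hd c => h.comm3 hy hQ (mem_sup_right hd) m c e'⟩

/-- `𝐜[t] = 𝐍[zpowers t]`. -/
theorem C2.cent (h : C2 G) {t : G} (ht : orderOf t = 2) : IsCharP 2 𝐜[t] := by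
  have p := isPGroup_zpowers (p := 2) (x := t) ⟨1, by rw [pow_one, ← ht, pow_orderOf_eq_one]⟩
  have := (PLocal.CP.isCharP_normalizer_iff p).1 (h _ p fun e => by
    rw [zpowers_eq_bot.1 e, orderOf_one] at ht; omega)
  rwa [centralizer_zpowers] at this

theorem mem_sec {A B : Subgroup G} {g : G} :
    g ∈ PLocal.CP.secCent A B ↔ g ∈ 𝐍[B] ∧ ∀ a ∈ A, cm a g ∈ B := by
  have e : ∀ a, cm a g = (g * a⁻¹ * g⁻¹ * a⁻¹⁻¹)⁻¹ := fun a => by simp only [cm]; group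
  refine and_congr_right fun _ => ⟨fun h a ha => e a ▸ inv_mem (h _ (inv_mem ha)), fun h a ha => ?_⟩
  have := h _ (inv_mem ha)
  rwa [e, inv_mem_iff, inv_inv] at this

/-- The elements of `X` acting trivially on `R ⧸ Z` and `Z` form a normal subgroup of `X`; its
elements of odd order centralize `R` (`PLocal.CP.mem_centralizer_of_chain`), so it is a 2-group
(`isPGroup_of_forall_coprime`, `IsCharP.eq_one`). -/
theorem mem_core_of_chain {X Z : Subgroup G} (hX : IsCharP 2 X) (hZ : Z ≤ 𝐑[X]) (nZ : X ≤ 𝐍[Z])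
    {u : G} (hu : u ∈ X) (h1 : ∀ r ∈ 𝐑[X], cm r u ∈ Z) (h2 : u ∈ 𝐂[Z]) : u ∈ 𝐑[X] := by
  have nR := le_normalizer_pCoreOf 2 X
  refine le_pCoreOf (R := X ⊓ (PLocal.CP.secCent 𝐑[X] Z ⊓ 𝐂[Z])) (isPGroup_of_forall_coprime
    fun g hg c => hX.eq_one hg.1 c ?_) inf_le_left (le_normalizer_inf le_normalizer (le_normalizer_inf
      (PLocal.CP.le_normalizer_secCent nR nZ) (le_normalizer_centralizer nZ)))
    ⟨hu, mem_sec.2 ⟨nZ hu, h1⟩, h2⟩
  refine PLocal.CP.mem_centralizer_of_chain c (fun | 0 => 𝐑[X] | 1 => Z | _ + 2 => ⊥) (fun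
    | 0 => isPGroup_pCoreOf 2 X | 1 => (isPGroup_pCoreOf 2 X).to_le hZ | _ + 2 => IsPGroup.of_bot) 2 rfl
    fun i hi a ha => ?_
  interval_cases i
  · exact hg.2.1.2 a ha
  · exact commutatorElement_eq_one_iff_mul_comm.2 (hg.2.2 a ha).symm

/-- If `a` inverts `y` modulo `Q` and `y` (odd order) has no fixed points on `V`, then
`C_V(a) ⊓ C_V(y a y⁻¹)` is centralized by `y ^ 2` (`Q` centralizes `V`), so is trivial; the two
groups have the same order and commute. -/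
theorem half_of_inv {Q V : Subgroup G} (cV : Q ≤ 𝐂[V]) (sq : ∀ v ∈ V, v * v = 1) {a y : G}
    (na : a ∈ 𝐍[V]) (ny : y ∈ 𝐍[V]) (hy : Odd (orderOf y)) (e : a * y * a⁻¹ * y ∈ Q)
    (hf : ∀ v ∈ V, v * y = y * v → v = 1) : Nat.card ↥(V ⊓ 𝐜[a]) ^ 2 ≤ Nat.card V := by
  have d : Disjoint (V ⊓ 𝐜[a]) cj(y, V ⊓ 𝐜[a]) := disjoint_def.2 fun {v} h1 h2 => by
    rw [cj_inf, centralizer_singleton_conj y a |>.symm] at h2
    refine hf v h1.1 (mem_c1.1 (mem_of_pow_mem_of_coprime (n := 2) ?_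
      (Nat.coprime_two_right.2 hy))).symm
    rw [show y ^ 2 = y * a * y⁻¹ * a⁻¹ * (a * y * a⁻¹ * y) by rw [pow_two]; group]
    exact mul_mem (mul_mem (mem_c1.2 (mem_c1.1 h2.2).symm) (inv_mem (mem_c1.2 (mem_c1.1 h1.2).symm)))
      (mem_c1.2 (cV e v h1.1).symm)
  rw [pow_two]
  nth_rw 2 [← card_cj y]
  rw [← Nat.card_prod]
  exact Nat.card_le_card_of_injective (fun x => (⟨x.1 * x.2, mul_mem x.1.2.1
    (cj_le_of_mem_normalizer inf_le_left ny x.2.2)⟩ : V))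
    fun x z l => mul_injective_of_disjoint d (congrArg Subtype.val l)

/-- `v ↦ cm v a` is an endomorphism of `V` with kernel `V ⊓ 𝐜[a]` and image inside the kernel. -/
theorem le_sq_cent {V : Subgroup G} (sq : ∀ v ∈ V, v * v = 1) {a : G} (na : a ∈ 𝐍[V])
    (a2 : a * a ∈ 𝐂[V]) : Nat.card V ≤ Nat.card ↥(V ⊓ 𝐜[a]) ^ 2 := by
  have ab : ∀ v ∈ V, ∀ w ∈ V, v * w = w * v := fun v hv w hw =>
    comm_of_sq (sq v hv) (sq w hw) (sq _ (mul_mem hv hw))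
  let φ : V →* G := MonoidHom.mk' (fun v => cm v a) fun v w => by
    rw [cm.eq_1 (w : G), ← mul_assoc, ab _ (cm_mem v.2 na) _ (inv_mem w.2)]
    simp only [cm, coe_mul]; group
  rw [← φ.ker.card_mul_index, index_ker, pow_two, ← card_map_of_injective V.subtype_injective]
  refine Nat.mul_le_mul (card_le_of_le ?_) (card_le_of_le ?_)
  · rintro _ ⟨v, hv, rfl⟩
    exact ⟨v.2, mem_c1.2 (cm_eq_one.1 hv)⟩
  · rintro _ ⟨v, rfl⟩
    refine ⟨cm_mem v.2 na, mem_c1.2 ?_⟩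
    change cm (v : G) a * a = a * cm (v : G) a
    conv_lhs => rw [eq_inv_of_mul_eq_one_left (sq _ (cm_mem v.2 na))]
    calc _ = a * (v : G)⁻¹ * a⁻¹ * (v * (a * a)) * a⁻¹ := by simp only [cm]; group
      _ = _ := by rw [a2 v v.2]; simp only [cm]; group

theorem ne_one_of_57 {x : G} (h : orderOf x = 5 ∨ orderOf x = 7) : x ≠ 1 := by
  rintro rfl
  rw [orderOf_one] at h
  omega

theorem exists_om' {M Q : Subgroup G} (hQ : IsPGroup 2 Q) (h1 : Q ≠ ⊥) (nQ : M ≤ 𝐍[Q]) :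
    ∃ V, ZV M Q V ∧ ∀ v ∈ Q ⊓ 𝐂[Q], v * v = 1 → v ∈ V := by
  let V : Subgroup G :=
    { carrier := {v | v ∈ Q ⊓ 𝐂[Q] ∧ v * v = 1}
      one_mem' := ⟨one_mem _, one_mul 1⟩
      mul_mem' := fun {a b} ha hb => ⟨mul_mem ha.1 hb.1, by
        rw [mul_assoc, ← mul_assoc b, ← hb.1.2 a ha.1.1, mul_assoc, hb.2, mul_one, ha.2]⟩
      inv_mem' := fun {a} ha => ⟨inv_mem ha.1, by rw [← mul_inv_rev, ha.2, inv_one]⟩ }
  refine ⟨V, ⟨fun v hv => hv.1.1, fun e => ?_, fun m hm => mem_normalizer_of_cj_le (cj_le_iff_forall.2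
    fun v hv => ⟨conj_mem_of_mem_normalizer (le_normalizer_inf nQ (le_normalizer_centralizer nQ) hm) hv.1,
      by rw [conj_mul, hv.2, mul_one, mul_inv_cancel]⟩), fun q hq v hv => (hv.1.2 q hq).symm,
    fun v hv => hv.2⟩, fun v hv e => ⟨hv, e⟩⟩
  obtain ⟨x, hx⟩ := exists_prime_orderOf_dvd_card' 2 ((hQ.to_le (inf_le_left (b := 𝐂[Q]))).card_eq_or_dvd.resolve_left
    fun l => inf_centralizer_ne_bot hQ hQ le_normalizer h1 (card_eq_one.1 l))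
  have : x = 1 := Subtype.ext (mem_bot.1 (e.le ⟨x.2, by
    rw [← coe_mul, ← pow_two, ← hx, pow_orderOf_eq_one, coe_one]⟩))
  rw [this, orderOf_one] at hx
  omega

namespace NSl

variable {M Q V : Subgroup G} (h : NSl M Q)
include h

/-- a 2-subgroup normalized by `M` lies in `Q` (`n57`) -/
theorem le_Q {B : Subgroup G} (hB : IsPGroup 2 B) (h1 : B ≤ M) (h2 : M ≤ 𝐍[B]) : B ≤ Q := by
  by_contra k
  obtain ⟨x, hx, o⟩ := h.n57 B h1 h2 k
  exact ne_one_of_57 o (h.p8.fpf o hB hx rfl)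

theorem core : 𝐑[M] = Q := by
  exact le_antisymm (h.le_Q (isPGroup_pCoreOf 2 M) (pCoreOf_le 2 M) (le_normalizer_pCoreOf 2 M))
    (le_pCoreOf h.two h.le h.nQ)

/-- `K = M ⊓ secCent Q V` is normal in `M` and not contained in `Q`; use `n57`, `P8.fpf`,
`le_of_fpf`. -/
theorem le_of_cm (nV : M ≤ 𝐍[V]) {a : G} (ha : a ∈ M) (a1 : a ∉ Q) (e : ∀ q ∈ Q, cm q a ∈ V) :
    Q ≤ V := by
  obtain ⟨x, hx, o⟩ := h.n57 (M ⊓ PLocal.CP.secCent Q V) inf_le_left (le_normalizer_inf le_normalizer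
    (PLocal.CP.le_normalizer_secCent h.nQ nV)) fun k => a1 (k ⟨ha, mem_sec.2 ⟨nV ha, e⟩⟩)
  exact le_of_fpf (h.nQ hx.1) (fun q hq => h.p8.fpf o h.two hq) (mem_sec.1 hx.2).2

theorem cent' (VQ : V ≤ Q) (V1 : V ≠ ⊥) (nV : M ≤ 𝐍[V]) : M ⊓ 𝐂[V] ≤ Q := by
  by_contra k
  obtain ⟨x, hx, o⟩ := h.n57 _ inf_le_left
    (le_normalizer_inf le_normalizer (le_normalizer_centralizer nV)) k
  exact V1 (eq_bot_iff.2 fun v hv => h.p8.fpf o h.two (VQ hv) (hx.2 v hv))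

/-- `M ⊓ 𝐂[V]` is normal in `M` and has no element of order 5 or 7. -/
theorem cent (hV : ZV M Q V) : M ⊓ 𝐂[V] ≤ Q := by
  exact h.cent' hV.VQ hV.V1 hV.nV

theorem charP : IsCharP 2 M := by
  rw [IsCharP, h.core]
  exact h.cent' le_rfl h.ne h.nQ

/-- no nontrivial element of `Q` is centralized by `M` -/
theorem eq_one {z : G} (hz : z ∈ Q) (e : M ≤ 𝐜[z]) : z = 1 := by
  obtain ⟨x, hx⟩ := (h.p8.sub M).exists57 h.ns
  exact h.p8.fpf (x := x) (by simpa only [Subgroup.orderOf_coe] using hx) h.two hz (mem_c1.1 (e x.2)).symm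

theorem rk' {W : Subgroup G} (hW : W ≤ M) (sq : ∀ w ∈ W, w * w = 1) :
    Nat.card W ≤ 4 * Nat.card ↥(W ⊓ Q) := by
  have := h.rk (W ⊓ Q) W hW (isPGroup_iff.2 fun w hw => ⟨1, by rw [pow_one, pow_two, sq w hw]⟩)
    (le_normalizer_inf le_normalizer (hW.trans h.nQ)) (fun w hw => sq w hw ▸ one_mem _) (inf_comm Q W).le
  rw [← ((W ⊓ Q).subgroupOf W).index_mul_card, Nat.card_congr (subgroupOfEquivOfLe inf_le_left).toEquiv]
  exact Nat.mul_le_mul_right _ this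

/-- `V = Ω₁(Z(Q))` -/
theorem exists_om : ∃ V, ZV M Q V ∧ ∀ v ∈ Q ⊓ 𝐂[Q], v * v = 1 → v ∈ V := by
  exact exists_om' h.two h.ne h.nQ

theorem cj (g : G) : NSl cj(g, M) cj(g, Q) := by
  have n : ∀ {A B : Subgroup G}, cj(g, A) ≤ 𝐍[B] → A ≤ 𝐍[cj(g⁻¹, B)] := fun k => by
    rw [normalizer_cj]; exact cj_le_iff.1 k
  refine ⟨h.p8, isPGroup_cj g h.two, cj_mono g h.le, normalizer_cj g Q ▸ cj_mono g h.nQ,
    fun e => h.ne (cj_eq_bot.1 e), fun e => h.ns (Group.isSolvable_of_isSolvable_injective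
      (f := (M.equivMapOfInjective (MulAut.conj g).toMonoidHom (MulAut.conj g).injective).toMonoidHom)
      (MulEquiv.injective _)),
    fun K h1 h2 h3 => ?_, fun K H h1 h2 h3 h4 h5 => ?_⟩
  · obtain ⟨x, hx, o⟩ := h.n57 _ (le_cj_iff.1 h1) (n h2) fun k => h3 (le_cj_iff.2 k)
    obtain ⟨y, hy, rfl⟩ := mem_cj_iff_exists.1 hx
    exact ⟨y, hy, by rwa [orderOf_conj'] at o⟩
  · rw [← relIndex_map_map_of_injective K H (MulAut.conj g⁻¹).injective (f := (MulAut.conj g⁻¹).toMonoidHom)]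
    refine h.rk _ _ (le_cj_iff.1 h1) (isPGroup_cj _ h2) (normalizer_cj g⁻¹ K ▸ cj_mono _ h3) ?_ ?_
    · intro x hx
      obtain ⟨y, hy, rfl⟩ := mem_cj_iff_exists.1 hx
      rw [conj_mul]
      exact conj_mem_cj _ (h4 y hy)
    · have := cj_mono g⁻¹ h5
      rwa [cj_inf, cj_inv_cj] at this

end NSl

theorem ZV.cj {M Q V : Subgroup G} (h : ZV M Q V) (g : G) : ZV cj(g, M) cj(g, Q) cj(g, V) := by
  refine ⟨cj_mono g h.VQ, fun e => h.V1 (cj_eq_bot.1 e), normalizer_cj g V ▸ cj_mono g h.nV,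
    centralizer_cj g V ▸ cj_mono g h.cV, fun x hx => ?_⟩
  obtain ⟨y, hy, rfl⟩ := mem_cj_iff_exists.1 hx
  rw [conj_mul, h.sq y hy, mul_one, mul_inv_cancel]

theorem ZV.pg {M Q V : Subgroup G} (h : ZV M Q V) : IsPGroup 2 V := by
  exact isPGroup_iff.2 fun w hw => ⟨1, by rw [pow_one, pow_two, h.sq w hw]⟩

theorem ZV.comm {M Q V : Subgroup G} (h : ZV M Q V) {u v : G} (hu : u ∈ V) (hv : v ∈ V) :
    u * v = v * u := by
  exact h.cV (h.VQ hv) u hu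

/-- a minimal normal subgroup of `M` inside the 2-group `Q`: start with `Ω₁(Z(Q))` -/
theorem exists_min {M Q : Subgroup G} (hQ : IsPGroup 2 Q) (h1 : Q ≠ ⊥) (nQ : M ≤ 𝐍[Q]) :
    ∃ V, ZV M Q V ∧ ∀ W ≤ V, M ≤ 𝐍[W] → W = ⊥ ∨ W = V := by
  obtain ⟨U, hU, -⟩ := exists_om' hQ h1 nQ
  obtain ⟨V, hV⟩ := exists_minimal_of_wellFoundedLT (ZV M Q) ⟨U, hU⟩
  refine ⟨V, hV.1, fun W l n => or_iff_not_imp_left.2 fun e => le_antisymm l (hV.2
    ⟨l.trans hV.1.VQ, e, n, hV.1.cV.trans (centralizer_anti l), fun v hv => hV.1.sq v (l hv)⟩ l)⟩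

namespace Mx

variable {M Q V : Subgroup G} (h : Mx M Q V)
include h

theorem norm_eq : 𝐍[V] = M := by
  exact le_antisymm (h.mx V h.toZV.pg h.V1 h.nV) h.nV

theorem cent_eq : 𝐂[V] = Q := by
  exact le_antisymm ((le_inf ((centralizer_le_normalizer' V).trans h.norm_eq.le) le_rfl).trans
    (h.cent h.toZV)) h.cV

theorem normQ : 𝐍[Q] = M := by
  exact le_antisymm (h.mx Q h.two h.ne h.nQ) h.nQ

theorem cj (g : G) : Mx cj(g, M) cj(g, Q) cj(g, V) := by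
  refine ⟨h.toNSl.cj g, h.toZV.cj g, h.c2, fun U h1 h2 h3 => le_cj_iff.2 ?_⟩
  rw [← normalizer_cj]
  exact h.mx _ (isPGroup_cj _ h1) (fun e => h2 (cj_eq_bot.1 e)) (normalizer_cj g⁻¹ U ▸ cj_le_iff.1 h3)

end Mx

/-- every 2-local subgroup lies in a maximal one -/
theorem exists_mxl {U : Subgroup G} (hU : IsPGroup 2 U) (h1 : U ≠ ⊥) :
    ∃ B : Subgroup G, IsPGroup 2 B ∧ B ≠ ⊥ ∧ 𝐍[U] ≤ 𝐍[B] ∧ Mxl 𝐍[B] := by
  obtain ⟨_, ⟨B, h2, h3, h4, rfl⟩, k⟩ := exists_maximal_of_wellFoundedGT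
    (fun N : Subgroup G => ∃ B : Subgroup G, IsPGroup 2 B ∧ B ≠ ⊥ ∧ 𝐍[U] ≤ 𝐍[B] ∧ 𝐍[B] = N)
    ⟨_, U, hU, h1, le_rfl, rfl⟩
  exact ⟨B, h2, h3, h4, fun W w1 w2 l => k ⟨W, w1, w2, h4.trans l, rfl⟩ l⟩

end Cfsg.Agent.Eo8
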