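import Mathlib
import Cfsg.Agent.Eo8.Fin
import Cfsg.Agent.Eo8.Api

/-!
# Groups with a known simple normal subgroup: general facts
-/

set_option autoImplicit false
set_option linter.unusedSectionVars false

namespace Cfsg.Agent.Eo8

open Subgroup Cfsg PLocal.Amb
open Cfsg.Agent.PLocal.CP (IsCharP)
open scoped MatrixGroups

universe u

variable {G : Type*} [Group G] [Finite G]

/-- what is used about the known simple groups -/
theorem Known.simple {X : Type*} [Group X] (h : Known X) : IsSimpleGroup X := by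
  rcases h with ⟨⟨e⟩⟩ | ⟨⟨e⟩⟩ | ⟨⟨e⟩⟩ | ⟨⟨e⟩⟩ | h
  · haveI : IsSimpleGroup A5 := alternatingGroup.isSimpleGroup (by simp)
    exact e.isSimpleGroup
  · haveI : IsSimpleGroup A6 := alternatingGroup.isSimpleGroup (by simp)
    exact e.isSimpleGroup
  · haveI := simple_L32
    exact e.isSimpleGroup
  · haveI : IsSimpleGroup A7 := alternatingGroup.isSimpleGroup (by simp)
    exact e.isSimpleGroup
  · exact h.simple

/-- From the orders `60, 360, 168, 2520, 20160` (`card_A5` …). -/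
theorem Known.card {X : Type*} [Group X] (h : Known X) :
    6 ∣ Nat.card X ∧ ¬ 27 ∣ Nat.card X ∧ ¬ 25 ∣ Nat.card X ∧ ¬ 49 ∣ Nat.card X ∧
      (5 ∣ Nat.card X ∨ 7 ∣ Nat.card X) := by
  rcases h with ⟨⟨e⟩⟩ | ⟨⟨e⟩⟩ | ⟨⟨e⟩⟩ | ⟨⟨e⟩⟩ | h
  · rw [Nat.card_congr e.toEquiv, card_A5]; norm_num
  · rw [Nat.card_congr e.toEquiv, card_A6]; norm_num
  · rw [Nat.card_congr e.toEquiv, card_L32]; norm_num
  · rw [Nat.card_congr e.toEquiv, card_A7]; norm_num
  · rw [h.card]; norm_num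

theorem as1_ex {B : Subgroup G} {p : ℕ} (hp : p.Prime) (h : p ∣ Nat.card B) :
    ∃ x ∈ B, orderOf x = p :=
  haveI := Fact.mk hp
  let ⟨x, hx⟩ := exists_prime_orderOf_dvd_card' p h
  ⟨x, x.2, (Subgroup.orderOf_coe x).trans hx⟩

theorem as1_57 {B : Subgroup G} (h : Known B) : ∃ x ∈ B, orderOf x = 5 ∨ orderOf x = 7 :=
  h.card.2.2.2.2.elim (fun h => (as1_ex (by norm_num) h).imp fun _ k => ⟨k.1, .inl k.2⟩)
    fun h => (as1_ex (by norm_num) h).imp fun _ k => ⟨k.1, .inr k.2⟩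

theorem as1_mod {V : Subgroup G} {x : G} {p : ℕ} (hp : p.Prime) (hx : x ^ p = 1) (nx : x ∈ 𝐍[V])
    (hf : ∀ v ∈ V, x * v = v * x → v = 1) : Nat.card V % p = 1 % p := by
  classical
  have := Fact.mk hp
  have := Fintype.ofFinite V
  have k := Equiv.Perm.card_fixedPoints_modEq (p := p) (n := 1)
    (f := MulAction.toEndHom (α := V) (V.normalizerMonoidHom ⟨x, nx⟩)) (by
      rw [← map_pow, ← map_pow, pow_one, show (⟨x, nx⟩ : 𝐍[V]) ^ p = 1 from
        Subtype.ext hx, map_one, map_one])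
  rw [Nat.card_eq_fintype_card]
  exact k.trans (congrArg (· % p) ((@Fintype.card_eq_one_iff _ (_)).2
    ⟨⟨1, map_one (V.normalizerMonoidHom ⟨x, nx⟩)⟩, fun v => Subtype.ext (Subtype.ext
      (hf _ v.1.2 (mul_inv_eq_iff_eq_mul.1 (congrArg Subtype.val v.2))))⟩))

theorem as1_small {R B : Subgroup G} {p : ℕ} (hp : p.Prime) (hR : IsPGroup p R) (RB : R ≤ B)
    (hB : ¬ p ^ 2 ∣ Nat.card B) {x : G} (hx : orderOf x = p) (xR : x ∈ R) : R ≤ zpowers x := by
  have := Fact.mk hp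
  obtain ⟨k, hk⟩ := IsPGroup.iff_card.1 hR
  have h1 : k ≤ 1 := by_contra fun c =>
    hB ((pow_dvd_pow p (by omega)).trans (hk ▸ card_dvd_of_le RB))
  refine (eq_of_le_of_card_ge (zpowers_le.2 xR) ?_).ge
  rw [hk, Nat.card_zpowers, hx]
  exact (Nat.pow_le_pow_right hp.pos h1).trans (pow_one p).le

theorem as1_pow {x g : G} {c : ℕ} (e : g * x * g⁻¹ = x ^ c) (i : ℕ) :
    g ^ i * x * (g ^ i)⁻¹ = x ^ c ^ i := by
  induction i with
  | zero => simp
  | succ i ih =>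
    rw [pow_succ' c, pow_mul, ← e, conj_pow, ← ih, pow_succ']
    group

theorem as1_p {p : ℕ} (hp : p = 5 ∨ p = 7) : p.Prime := by rcases hp with rfl | rfl <;> norm_num

theorem P8.as1_c (h : P8 G) {p : ℕ} (hp : p = 5 ∨ p = 7) {x y : G} (hx : orderOf x = p)
    (c : x * y = y * x) : y ^ p = 1 := by
  rcases hp with rfl | rfl
  exacts [h.c5 hx c, h.c7 hx c]

theorem as1_sq {B : Subgroup G} (h : Known B) {p : ℕ} (hp : p = 5 ∨ p = 7) : ¬ p ^ 2 ∣ Nat.card B := by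
  rcases hp with rfl | rfl
  exacts [h.card.2.2.1, h.card.2.2.2.1]

variable {L : Subgroup G} [L.Normal]

/-- `L` has an element `x` of order `p ∈ {5, 7}` and an involution `t` (Cauchy).  If `g ≠ 1`
centralizes `L` then `g ^ p = 1` (`c5`, `c7`), so `g` has order `p` and commutes with `t`:
`P8.no57`. -/
theorem P8.cent_known (h : P8 G) (hL : Known L) {g : G} (hg : g ∈ 𝐂[L]) : g = 1 := by
  obtain ⟨x, xL, hx⟩ := as1_57 hL
  obtain ⟨t, tL, ht⟩ := as1_ex Nat.prime_two ((by norm_num : 2 ∣ 6).trans hL.card.1)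
  by_contra g1
  refine h.no57 ht (mem_c1.2 (hg t tL).symm) ?_
  rwa [ord_prime _ (h.as1_c hx rfl (hg x xL)) g1 (as1_p hx)]

/-- A nontrivial normal subgroup `M` meets `L` nontrivially (otherwise it centralizes `L`,
`Subgroup.commute_of_normal_of_disjoint`), so contains the simple group `L`. -/
theorem P8.n57_known (h : P8 G) (hL : Known L) : N57 G := by
  intro M hM M1
  obtain ⟨x, xL, hx⟩ := as1_57 hL
  haveI := hL.simple
  refine ((hM.subgroupOf L).eq_bot_or_eq_top).elim (fun e => absurd ?_ M1)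
    fun e => ⟨x, subgroupOf_eq_top.1 e xL, hx⟩
  exact (eq_bot_iff_forall M).2 fun m hm => h.cent_known hL fun l hl =>
    (commute_of_normal_of_disjoint M L hM inferInstance (subgroupOf_eq_bot.1 e) m l hm hl).eq.symm

/-- Let `S` be a Sylow 3-subgroup of `L`, `|S| ∈ {3, 9}`.  An element `x` of order `p` normalizing
`S` has no fixed point on `S#` (`c5`, `c7`), so `|S| ≡ 1 mod p`
(`IsPGroup.card_modEq_card_fixedPoints`), false.  So `p ∤ |N(S)|`.  By the Frattini argument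
`G = L N(S)` (`Sylow.normalizer_sup_eq_top`, or the `IsSyl` version in `PLocal.Amb`), so
`N(S) → G/L` is onto and `|G : L|` divides `|N(S)|`. -/
theorem P8.idx_known (h : P8 G) (hL : Known L) {p : ℕ} (hp : p = 5 ∨ p = 7) : ¬ p ∣ L.index := by
  intro hd
  have := Fact.mk Nat.prime_three
  obtain ⟨S, hS⟩ := exists_isSyl 3 L
  have h1 := hS.frattini_sup le_top le_normalizer_of_normal
  rw [← relIndex_top_right, ← h1, relIndex_sup_left] at hd
  obtain ⟨x, xN, hx⟩ := as1_ex (as1_p hp) (hd.trans (relIndex_dvd_card _ _))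
  obtain ⟨k, hk⟩ := IsPGroup.iff_card.1 hS.pgrp
  have h2 := as1_mod (as1_p hp) (hx ▸ pow_orderOf_eq_one x) xN.2 fun v hv c =>
    eq_one_of_pow (h.three hS.pgrp hv) (h.as1_c hp hx c) (by rcases hp with rfl | rfl <;> norm_num)
  have h3 : k ≠ 0 := fun c => hS.eq_bot_iff.1 (card_eq_one.1 (by rw [hk, c, pow_zero]))
    ((by norm_num : 3 ∣ 6).trans hL.card.1)
  have h4 : k < 3 := by_contra fun c => hL.card.2.1
    ((pow_dvd_pow 3 (not_lt.1 c)).trans (hk ▸ card_dvd_of_le hS.le))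
  rw [hk] at h2
  rcases hp with rfl | rfl <;> interval_cases k <;> omega

/-- `p² ∤ |G| = |L| |G : L|`.  If `g` commutes with `x` then `C(x)` is a group of exponent `p`
(`c5`, `c7`), a `p`-group of order dividing `|G|`, so of order `p`, so equal to `⟨x⟩`. -/
theorem P8.cent_p (h : P8 G) (hL : Known L) {p : ℕ} (hp : p = 5 ∨ p = 7) {x g : G}
    (hx : orderOf x = p) (c : g * x = x * g) : g ∈ zpowers x := by
  refine as1_small (R := 𝐜[x]) (as1_p hp) (fun y => ⟨1, Subtype.ext (by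
    rw [pow_one]; exact h.as1_c hp hx (mem_c1.1 y.2).symm)⟩) le_top (fun d => as1_sq hL hp ?_) hx
    (mem_c1.2 rfl) (mem_c1.2 c)
  rw [card_top, ← L.card_mul_index] at d
  exact (((as1_p hp).coprime_iff_not_dvd.2 (h.idx_known hL hp)).pow_left 2).dvd_of_dvd_mul_right d

/-- Frattini argument: `⟨x⟩` and `⟨y x y⁻¹⟩` are Sylow `p`-subgroups of `L` (`p² ∤ |L|`). -/
theorem P8.frat_p (h : P8 G) (hL : Known L) {p : ℕ} (hp : p = 5 ∨ p = 7) {x : G} (xL : x ∈ L)
    (hx : orderOf x = p) (y : G) : ∃ l ∈ L, ∃ k < p, 0 < k ∧ l * y * x * (l * y)⁻¹ = x ^ k := by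
  classical
  have := Fact.mk (as1_p hp)
  have hS : IsSyl p (zpowers x) L := ⟨zpowers_le.2 xL, isPGroup_zpowers ⟨1, by
    rw [pow_one, ← hx, pow_orderOf_eq_one]⟩, fun R h1 h2 h3 =>
      as1_small (as1_p hp) h1 h3 (as1_sq hL hp) hx (h2 (mem_zpowers x))⟩
  obtain ⟨n, nL, a, ha, rfl⟩ := hS.frattini (le_normalizer_of_normal (mem_top y))
  obtain ⟨k, h1, h2⟩ := Finset.mem_image.1 (mem_zpowers_iff_mem_range_orderOf.1
    (conj_mem_of_mem_normalizer ha (mem_zpowers x)))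
  refine ⟨n⁻¹, inv_mem nL, k, hx ▸ Finset.mem_range.1 h1, Nat.pos_of_ne_zero fun c => ?_, by
    rw [inv_mul_cancel_left, h2]⟩
  rw [c, pow_zero, eq_comm, conj_eq_one_iff] at h2
  rw [h2, orderOf_one] at hx
  omega

theorem P8.as1_mem (h : P8 G) (hL : Known L) {p c k : ℕ} (hp : p = 5 ∨ p = 7) {x g a : G} (xL : x ∈ L)
    (gL : g ∈ L) (hx : orderOf x = p) (e : g * x * g⁻¹ = x ^ c) (ea : a * x * a⁻¹ = x ^ k)
    (hi : ∃ i < 4, c ^ i % p = k % p) : a ∈ L := by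
  obtain ⟨i, -, hi⟩ := hi
  have h1 := as1_pow e i
  rw [← pow_mod_orderOf x, hx, hi, ← hx, pow_mod_orderOf, ← ea] at h1
  refine (L.mul_mem_cancel_left (inv_mem (pow_mem gL i))).1
    (zpowers_le.2 xL (h.cent_p hL hp hx ?_))
  calc (g ^ i)⁻¹ * a * x = (g ^ i)⁻¹ * (a * x * a⁻¹) * a := by group
    _ = x * ((g ^ i)⁻¹ * a) := by rw [← h1]; group

/-- Put `a = l * y` from `frat_p`.  If `a x a⁻¹ = x ^ k` with `k ≡ c ^ i`, then `(g ^ i)⁻¹ a`
centralizes `x`, so lies in `⟨x⟩ ≤ L` and `y ∈ L`.  For `(p, c) = (5, 2)` every `k` is of this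
form. -/
theorem P8.top_of_aut (h : P8 G) (hL : Known L) {x g : G} (xL : x ∈ L) (gL : g ∈ L)
    (hx : orderOf x = 5) (e : g * x * g⁻¹ = x ^ 2) : L = ⊤ := by
  refine eq_top_iff.2 fun y _ => ?_
  obtain ⟨l, lL, k, k1, k2, ea⟩ := h.frat_p hL (.inl rfl) xL hx y
  exact (L.mul_mem_cancel_left lL).1 (h.as1_mem hL (.inl rfl) xL gL hx e ea (by
    interval_cases k <;> decide))

/-- As in `top_of_aut`: for `y ∉ L` the exponent `k` is a non-square mod `p` (`{2, 3}` for `p = 5`,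
`{3, 5, 6}` for `p = 7`), and a product of two non-squares is a square, so `y, y' ∉ L` implies
`y * y' ∈ L` (write `l y l' y' ∈ L`, `L` normal); `Subgroup.index_eq_two_iff` (or
`index_eq_two_iff'`).  In the case `p = 7` multiply `a` by a power of `g` to get `k = 3`. -/
theorem P8.idx_two (h : P8 G) (hL : Known L) {p c : ℕ} (hp : p = 5 ∧ c = 4 ∨ p = 7 ∧ c = 2)
    {x g : G} (xL : x ∈ L) (gL : g ∈ L) (hx : orderOf x = p) (e : g * x * g⁻¹ = x ^ c)
    (hn : L ≠ ⊤) : L.index = 2 ∧ (p = 7 → ∃ a : G, a * x * a⁻¹ = x ^ 3) := by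
  have hp' : p = 5 ∨ p = 7 := hp.imp And.left And.left
  have key : ∀ y ∉ L, ∃ l ∈ L, ∃ k < p, 0 < k ∧ l * y * x * (l * y)⁻¹ = x ^ k ∧
      ¬ ∃ i < 4, c ^ i % p = k % p := fun y hy => by
    obtain ⟨l, lL, k, k1, k2, ea⟩ := h.frat_p hL hp' xL hx y
    exact ⟨l, lL, k, k1, k2, ea, fun d =>
      hy ((L.mul_mem_cancel_left lL).1 (h.as1_mem hL hp' xL gL hx e ea d))⟩
  obtain ⟨y, hy⟩ : ∃ y, y ∉ L := by
    by_contra! d
    exact hn (eq_top_iff.2 fun y _ => d y)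
  obtain ⟨l, lL, k, k1, k2, ea, hk⟩ := key y hy
  refine ⟨index_eq_two_iff.2 ⟨y, fun b => ?_⟩, fun h7 => ?_⟩
  · by_cases hb : b ∈ L
    · exact Or.inr ⟨hb, fun d => hy ((L.mul_mem_cancel_left hb).1 d)⟩
    obtain ⟨l', lL', k', k1', k2', ea', hk'⟩ := key b hb
    have h1 : l' * b * (l * y) ∈ L := h.as1_mem (k := k' * k) hL hp' xL gL hx e (by
      rw [pow_mul, ← ea', conj_pow, ← ea]; group) (by
      rcases hp with ⟨rfl, rfl⟩ | ⟨rfl, rfl⟩ <;> revert hk hk' <;> interval_cases k <;>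
        interval_cases k' <;> decide)
    refine Or.inl ⟨(L.mul_mem_cancel_left (mul_mem lL'
      ((inferInstance : L.Normal).conj_mem l lL b))).1 ?_, hb⟩
    simpa only [mul_assoc, inv_mul_cancel_left] using h1
  · obtain ⟨rfl, rfl⟩ := hp.resolve_left (by omega)
    obtain ⟨i, -, hi⟩ : ∃ i < 3, 2 ^ i * k % 7 = 3 := by
      revert hk; interval_cases k <;> decide
    refine ⟨g ^ i * (l * y), ?_⟩
    rw [← hi, ← hx, pow_mod_orderOf, pow_mul, ← as1_pow e, conj_pow, ← ea]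
    group

/-- `R = ⟨x⟩`; `a ^ i` acts as `x ↦ x ^ (3 ^ i)`, so commutes with a nontrivial power of `x` only
if `6 ∣ i`.  In particular `6` divides the order of `a`, which is `≤ 8`, so `a ^ 6 = 1`. -/
theorem P8.fd76 (h : P8 G) {x a : G} (hx : orderOf x = 7) (e : a * x * a⁻¹ = x ^ 3) :
    FD G 7 6 := by
  have k : ∀ i, a ^ i * x = x * a ^ i → 3 ^ i % 7 = 1 % 7 := fun i c => by
    have := as1_pow e i
    rw [c, mul_inv_cancel_right, ← pow_one x, ← pow_mul, one_mul, pow_eq_pow_iff_modEq, hx] at this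
    exact this.symm
  refine ⟨zpowers x, a, ⟨x, mem_zpowers x, ne_one_of_57 (.inr hx)⟩, ?_, ?_,
    h.pow_of fun n h0 h1 hn => ?_, fun i hi h0 r hr c => by_contra fun r1 => ?_⟩
  · rintro _ ⟨n, rfl⟩
    rw [← zpow_natCast, ← zpow_mul, mul_comm, zpow_mul, zpow_natCast, ← hx, pow_orderOf_eq_one, one_zpow]
  · rintro _ ⟨n, rfl⟩
    rw [← conj_zpow, e]
    exact zpow_mem (pow_mem (mem_zpowers x) 3) n
  · have := k n (by rw [← hn, pow_orderOf_eq_one, one_mul, mul_one])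
    interval_cases n <;> omega
  · have h2 : zpowers r = zpowers x := eq_of_le_of_card_ge (zpowers_le.2 hr) (by
      have := orderOf_dvd_of_mem_zpowers hr
      rw [hx] at this
      rw [Nat.card_zpowers, Nat.card_zpowers, hx, ((Nat.dvd_prime (by norm_num)).1 this).resolve_left
        (mt orderOf_eq_one_iff.1 r1)])
    obtain ⟨n, hn⟩ := h2.ge (mem_zpowers x)
    have := k i (hn ▸ ((show Commute r (a ^ i) from c).zpow_left n).eq.symm)
    interval_cases i <;> omega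

/-- Copy of `O6.FD.map`. -/
theorem FD.map {X Y : Type*} [Group X] [Group Y] {q n : ℕ} (h : FD X q n) (f : X →* Y)
    (hf : Function.Injective f) : FD Y q n := by
  obtain ⟨R, g, ⟨r, hr, r1⟩, h1, h2, h3, h4⟩ := h
  refine ⟨R.map f, f g, ⟨f r, mem_map_of_mem f hr, fun e => r1 (hf (e.trans f.map_one.symm))⟩,
    ?_, ?_, by rw [← map_pow, h3, map_one], fun i hi h0 => ?_⟩
  · rintro _ ⟨s, hs, rfl⟩
    rw [← map_pow, h1 s hs, map_one]
  · rintro _ ⟨s, hs, rfl⟩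
    exact ⟨_, h2 s hs, by simp⟩
  · rintro _ ⟨s, hs, rfl⟩ e
    rw [h4 i hi h0 s hs (hf (by simpa using e)), map_one]

theorem as1_n57 {X Y : Type*} [Group X] [Group Y] (e : X ≃* Y) (h : N57 Y) : N57 X := fun M hM M1 => by
  obtain ⟨_, ⟨x, hx, rfl⟩, k⟩ := h (M.map e.toMonoidHom) (hM.map _ e.surjective)
    (mt (map_eq_bot_iff_of_injective M e.injective).1 M1)
  exact ⟨x, hx, by rwa [MulEquiv.coe_toMonoidHom, e.orderOf_eq] at k⟩

/-- By `n57_alt`, `n57_perm`, `n57_L32`, transported along the isomorphisms. -/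
theorem AS.n57 {X : Type*} [Group X] (h : AS X) : N57 X := by
  rcases h with ⟨⟨e⟩⟩ | ⟨⟨e⟩⟩ | ⟨⟨e⟩⟩ | ⟨⟨e⟩⟩ | h | ⟨⟨e⟩⟩ | h | ⟨⟨e⟩⟩ | h
  exacts [as1_n57 e (n57_alt le_rfl), as1_n57 e (n57_perm le_rfl), as1_n57 e (n57_alt (by norm_num)),
    as1_n57 e (n57_perm (by norm_num)), h.1, as1_n57 e n57_L32, h.1,
    as1_n57 e (n57_alt (by norm_num)), h.1]

end Cfsg.Agent.Eo8
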