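import Mathlib
import Cfsg.Agent.Eo8.Api

/-!
# Extensions of a 2-group
-/

set_option autoImplicit false
set_option linter.unusedSectionVars false

namespace Cfsg.Agent.Eo8

open Subgroup Cfsg PLocal.Amb
open Cfsg.Agent.PLocal.CP (IsCharP)
open scoped MatrixGroups

universe u

variable {G : Type*} [Group G] [Finite G]

variable {X : Type*} [Group X] {M Q V : Subgroup G}

theorem Ext.nQ (h : Ext X M Q) : M ≤ 𝐍[Q] := by
  obtain ⟨π, -, hπ⟩ := h.hom
  refine le_normalizer_iff.2 fun m hm q hq => (hπ (⟨m, hm⟩ * ⟨q, h.le hq⟩ * ⟨m, hm⟩⁻¹)).1 ?_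
  rw [map_mul, map_mul, (hπ ⟨q, h.le hq⟩).2 hq, mul_one, map_inv, mul_inv_cancel]

theorem Ext.congr {Y : Type*} [Group Y] (h : Ext X M Q) (e : X ≃* Y) : Ext Y M Q := by
  obtain ⟨π, hs, hπ⟩ := h.hom
  exact ⟨h.p8, h.two, h.le, e.toMonoidHom.comp π, e.surjective.comp hs, fun m =>
    (map_eq_one_iff e e.injective).trans (hπ m)⟩

/-- the preimage of the range of `ι`, keeping track of the maps -/
theorem Ext.sub' {Y : Type*} [Group Y] (h : Ext X M Q) {π : M →* X} (hs : Function.Surjective π)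
    (hπ : ∀ m, π m = 1 ↔ (m : G) ∈ Q) (ι : Y →* X) (hι : Function.Injective ι) :
    ∃ (M' : Subgroup G) (hM : M' ≤ M) (π' : M' →* Y), Ext Y M' Q ∧ Function.Surjective π' ∧
      (∀ m, π' m = 1 ↔ (m : G) ∈ Q) ∧ ∀ m : M', ι (π' m) = π ⟨m, hM m.2⟩ := by
  have hM := map_subtype_le (ι.range.comap π)
  have hφ : ∀ m, π.comp (inclusion hM) m ∈ ι.range := fun m =>
    (mem_map_subtype (x := inclusion hM m)).1 m.2
  let π' := (MonoidHom.ofInjective hι).symm.toMonoidHom.comp (MonoidHom.codRestrict _ _ hφ)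
  have k : ∀ m, ι (π' m) = π ⟨m, hM m.2⟩ := fun m => MonoidHom.apply_ofInjective_symm hι _
  have s : Function.Surjective π' := fun y => by
    obtain ⟨m, hm⟩ := hs (ι y)
    exact ⟨⟨m, mem_map_subtype.2 ⟨y, hm.symm⟩⟩, hι ((k _).trans hm)⟩
  have t : ∀ m, π' m = 1 ↔ (m : G) ∈ Q := fun m => by
    rw [← map_eq_one_iff ι hι, k, hπ]
  exact ⟨_, hM, π', ⟨h.p8, h.two, fun q hq => (mem_map_subtype (x := ⟨q, h.le hq⟩)).2
    ⟨1, (map_one ι).trans ((hπ _).2 hq).symm⟩, π', s, t⟩, s, t, k⟩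

/-- the preimage of the range of `ι` -/
theorem Ext.sub {Y : Type*} [Group Y] (h : Ext X M Q) (ι : Y →* X) (hι : Function.Injective ι) :
    ∃ M' ≤ M, Ext Y M' Q := by
  obtain ⟨π, hs, hπ⟩ := h.hom
  obtain ⟨M', hM, -, e, -⟩ := h.sub' hs hπ ι hι
  exact ⟨M', hM, e⟩

/-- passing to `M ⧸ U` -/
theorem Ext.quot (h : Ext X M Q) {U : Subgroup G} (hU : U ≤ Q) [(U.subgroupOf M).Normal] :
    Ext X (⊤ : Subgroup (M ⧸ U.subgroupOf M))
      ((Q.subgroupOf M).map (QuotientGroup.mk' (U.subgroupOf M))) := by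
  obtain ⟨π, hs, hπ⟩ := h.hom
  refine ⟨(h.p8.sub M).quot _, (isPGroup_subgroupOf h.two M).map _, le_top,
    (QuotientGroup.lift (U.subgroupOf M) π fun m hm => (hπ m).2 (hU hm)).comp (⊤ : Subgroup _).subtype,
    fun x => ?_, fun ⟨m, hm⟩ => ?_⟩
  · obtain ⟨m, rfl⟩ := hs x
    exact ⟨⟨m, trivial⟩, rfl⟩
  · obtain ⟨m, rfl⟩ := QuotientGroup.mk'_surjective _ m
    refine (hπ m).trans ⟨fun k => ⟨m, k, rfl⟩, fun ⟨q, hq, e⟩ => ?_⟩
    have : q * (q⁻¹ * m) ∈ Q.subgroupOf M := mul_mem hq (hU (QuotientGroup.eq (a := q) (b := m).1 e))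
    rwa [mul_inv_cancel_left] at this

theorem Ext.card (h : Ext X M Q) : Nat.card M = Nat.card Q * Nat.card X := by
  obtain ⟨π, hs, hπ⟩ := h.hom
  rw [← π.ker.card_mul_index, index_ker, π.range_eq_top_of_surjective hs, card_top,
    show π.ker = Q.subgroupOf M from Subgroup.ext hπ,
    Nat.card_congr (subgroupOfEquivOfLe h.le).toEquiv]

/-- `n57`: the image of `K` is a nontrivial normal subgroup, lift with `P8.lift57`.  `rk`:
`K.relIndex H` divides `Q.relIndex H = card (image of H) ≤ 8`; if it is 8 then `K ⊓ H = Q ⊓ H` and the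
image of `H` is elementary abelian of order 8. -/
theorem Ext.nsl (h : Ext X M Q) (h1 : Q ≠ ⊥) (h57 : N57 X) (hr : Rk X)
    (hs : ¬ Group.IsSolvable X) : NSl M Q := by
  obtain ⟨π, sπ, hπ⟩ := h.hom
  refine ⟨h.p8, h.two, h.le, h.nQ, h1, fun _ => hs (Group.isSolvable_of_surjective sπ),
    fun K hK nK hQ => ?_, fun K H hH H2 _ sq hQ => ?_⟩
  · obtain ⟨_, ⟨k, hk, rfl⟩, e⟩ := h57 _ ((normal_subgroupOf' nK).map π sπ) fun e => hQ fun k hk =>
      (hπ ⟨k, hK hk⟩).1 (mem_bot.1 (e ▸ mem_map_of_mem π hk))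
    refine ⟨k, hk, ?_⟩
    rw [Subgroup.orderOf_coe, (h.p8.sub M).lift57 π e rfl]
    exact e
  · let φ := π.comp (inclusion hH)
    have k1 : φ.ker ≤ K.subgroupOf H := fun x hx => hQ ⟨(hπ _).1 hx, x.2⟩
    rcases k1.eq_or_lt with e | e
    · rw [relIndex, ← e, index_ker]
      refine hr.2 _ ?_
      rintro _ ⟨x, rfl⟩
      rw [← map_mul]
      exact e.ge (sq x x.2)
    · have k2 := index_dvd_of_le k1
      have k3 := index_strictAnti e
      rw [index_ker] at k2 k3
      have := Finite.of_surjective _ φ.rangeRestrict_surjective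
      obtain ⟨n, hn⟩ := IsPGroup.iff_card.1 (H2.of_surjective _ φ.rangeRestrict_surjective)
      have k4 : 2 ^ n ∣ 2 ^ 3 := pow_dvd_pow _ (by
        by_contra! c
        exact hr.1 ((pow_dvd_pow 2 c).trans (hn ▸ card_subgroup_dvd_card φ.range)))
      rw [hn] at k2 k3
      have k5 := k3.trans_le (Nat.le_of_dvd (by norm_num) k4)
      have k6 := k2.trans k4
      rw [relIndex]
      generalize (K.subgroupOf H).index = i at k5 k6
      interval_cases i <;> omega

/-- The action of `X` on `V` by conjugation; elements of order 5 or 7 have trivial norm: the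
product is centralized by a preimage of `x` (`P8.lift57`, `P8.fpf`). -/
theorem Ext.rho (h : Ext X M Q) (hV : ZV M Q V) {π : M →* X} (hs : Function.Surjective π)
    (hπ : ∀ m, π m = 1 ↔ (m : G) ∈ Q) :
    ∃ ρ : X →* MulAut V, (∀ (m : M) (v : V), (ρ (π m) v : G) = m * v * (m : G)⁻¹) ∧
      ∀ x : X, orderOf x = 5 ∨ orderOf x = 7 → ∀ v : V, (ρ x v = v → v = 1) ∧
        ((List.range (orderOf x)).map fun i => ρ (x ^ i) v).prod = 1 := by
  have k : π.ker ≤ (V.normalizerMonoidHom.comp (inclusion hV.nV)).ker := fun m hm =>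
    V.normalizerMonoidHom_ker.ge (hV.cV ((hπ m).1 hm))
  let ρ := π.liftOfSurjective hs ⟨_, k⟩
  have e : ∀ (m : M) (v : V), (ρ (π m) v : G) = m * v * (m : G)⁻¹ := fun m v => by
    rw [MonoidHom.liftOfRightInverse_comp_apply]; rfl
  have f : ∀ x : X, orderOf x = 5 ∨ orderOf x = 7 → ∀ v : V, ρ x v = v → v = 1 := fun x hx v hv => by
    obtain ⟨m, rfl⟩ := hs x
    refine Subtype.ext (h.p8.fpf (x := m) ?_ h.two (hV.VQ v.2)
      (mul_inv_eq_iff_eq_mul.1 ((e m v).symm.trans (congrArg Subtype.val hv))).symm)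
    rw [Subgroup.orderOf_coe, (h.p8.sub M).lift57 π hx rfl]
    exact hx
  refine ⟨ρ, e, fun x hx v => ⟨f x hx v, f x hx _ ?_⟩⟩
  have k1 := List.prod_range_succ (fun i => ρ (x ^ i) v) (orderOf x)
  have c : ∀ a b : V, a * b = b * a := fun a b => Subtype.ext (hV.comm a.2 b.2)
  rw [List.prod_range_succ', pow_orderOf_eq_one, pow_zero, c _ (ρ 1 v), mul_right_inj] at k1
  rw [map_list_prod, List.map_map, ← k1]
  simp only [pow_succ', map_mul, MulAut.mul_apply, Function.comp_def]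

/-- an element of order 5 acts without fixed points, so `card V ≡ 1 mod 5`; powers of 2 with this
property are powers of 16 -/
theorem P8.mod15 (h : P8 G) (hV : IsPGroup 2 V) {x : G} (hx : orderOf x = 5) (nx : x ∈ 𝐍[V]) :
    Nat.card V % 15 = 1 := by
  classical
  have := Fact.mk Nat.prime_five
  have := Fintype.ofFinite V
  have k := Equiv.Perm.card_fixedPoints_modEq (p := 5) (n := 1)
    (f := MulAction.toEndHom (α := V) (V.normalizerMonoidHom ⟨x, nx⟩)) (by
      rw [← map_pow, ← map_pow, pow_one, show (⟨x, nx⟩ : 𝐍[V]) ^ 5 = 1 from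
        Subtype.ext (hx ▸ pow_orderOf_eq_one x :), map_one, map_one])
  replace k : Nat.card V % 5 = 1 % 5 := by
    rw [Nat.card_eq_fintype_card]
    exact k.trans (congrArg (· % 5) ((@Fintype.card_eq_one_iff _ (_)).2
      ⟨⟨1, map_one (V.normalizerMonoidHom ⟨x, nx⟩)⟩, fun v => Subtype.ext (Subtype.ext
        (h.fpf (.inl hx) hV v.1.2 (mul_inv_eq_iff_eq_mul.1 (congrArg Subtype.val v.2)).symm))⟩))
  obtain ⟨n, hn⟩ := IsPGroup.iff_card.1 hV
  rw [hn, ← Nat.div_add_mod n 4, pow_add, pow_mul] at k ⊢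
  have k1 : (2 ^ 4) ^ (n / 4) % 15 = 1 := by rw [Nat.pow_mod]; simp
  have k2 := Nat.mod_lt n (show 0 < 4 by norm_num)
  interval_cases n % 4 <;> omega

/-- certificate engine: in an elementary abelian 2-group, a product of conjugates of `v` in which
every coset key occurs an even number of times is trivial -/
theorem prod_eq_one {W K : Type*} [Group W] [DecidableEq K] (sq : ∀ w : W, w * w = 1) (f : X → W)
    (κ : X → K) (hκ : ∀ g g', κ g = κ g' → f g = f g') (l : List X)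
    (hl : ∀ k ∈ l.map κ, (l.map κ).count k % 2 = 0) : (l.map f).prod = 1 := by
  let _ : CommGroup W := { ‹Group W› with mul_comm := fun a b => comm_of_sq (sq a) (sq b) (sq _) }
  rw [← Function.FactorsThrough.extend_comp (f := κ) (g := f) (fun _ => 1) hκ, ← List.map_map,
    Finset.prod_list_map_count]
  refine Finset.prod_eq_one fun k hk => ?_
  obtain ⟨r, hr⟩ := Nat.even_iff.2 (hl k (List.mem_toFinset.1 hk))
  rw [hr, pow_add, sq]

end Cfsg.Agent.Eo8
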