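import Mathlib
import Cfsg.Agent.Eo8.Defs
import Cfsg.Agent.Class.LinearBasic

/-!
# Finite facts on the small groups: auxiliary lemmas
-/

set_option autoImplicit false
set_option linter.unusedSectionVars false
set_option maxRecDepth 100000
set_option synthInstance.maxSize 2000

namespace Cfsg.Agent.Eo8

open Subgroup Cfsg PLocal.Amb
open Cfsg.Agent.PLocal.CP (IsCharP)
open scoped MatrixGroups

universe u

variable {G : Type*} [Group G] [Finite G]

namespace Fn

open Equiv Equiv.Perm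

theorem card_SL3 {F : Type*} [Field F] [Fintype F] : (Fintype.card F - 1) * Nat.card SL(3, F) =
    (Fintype.card F ^ 3 - 1) * (Fintype.card F ^ 3 - Fintype.card F) *
      (Fintype.card F ^ 3 - Fintype.card F ^ 2) := by
  have := Class.card_units_mul_card_SL (ι := Fin 3) (R := F)
  rw [Nat.card_units, Matrix.card_GL_field, Nat.card_eq_fintype_card] at this
  simpa [Fin.prod_univ_three] using this

theorem simple_alt {n : ℕ} (hn : 5 ≤ n) : IsSimpleGroup (alternatingGroup (Fin n)) :=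
  alternatingGroup.isSimpleGroup (by simpa)

theorem ex5 {n : ℕ} (hn : 5 ≤ n) : ∃ x : alternatingGroup (Fin n), orderOf x = 5 := by
  have : Nontrivial (Fin n) := Fin.nontrivial_iff_two_le.2 (by omega)
  have h1 := two_mul_nat_card_alternatingGroup (α := Fin n)
  rw [Nat.card_perm, Nat.card_fin] at h1
  have h2 : 5 ∣ n.factorial := Nat.dvd_factorial (by norm_num) hn
  have := Fact.mk Nat.prime_five
  exact exists_prime_orderOf_dvd_card' (G := alternatingGroup (Fin n)) 5 (by omega)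

theorem rk_of {X : Type*} [Group X] [Finite X] (h16 : ¬ 16 ∣ Nat.card X)
    (h : ¬ 8 ∣ Nat.card X ∨ ∃ g : X, g ^ 4 = 1 ∧ g * g ≠ 1) : Rk X := by
  refine ⟨h16, fun A hA => ?_⟩
  have A2 : IsPGroup 2 A := fun a => ⟨1, Subtype.ext (by simpa [sq] using hA a a.2)⟩
  have small : ∀ B : Subgroup X, IsPGroup 2 B → Nat.card B ≤ 4 ∨ Nat.card B = 8 := fun B hB => by
    obtain ⟨k, hk⟩ := IsPGroup.iff_card.1 hB
    have h1 : k < 4 := by
      by_contra r
      exact h16 ((pow_dvd_pow 2 (not_lt.1 r)).trans (hk ▸ B.card_subgroup_dvd_card))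
    rw [hk]
    interval_cases k <;> simp
  refine (small A A2).resolve_right fun h8 => ?_
  rcases h with h | ⟨g, g4, g2⟩
  · exact h (h8 ▸ A.card_subgroup_dvd_card)
  obtain ⟨P, hP⟩ := A2.exists_le_sylow
  obtain ⟨P', hP'⟩ := (isPGroup_zpowers (p := 2) (x := g) ⟨2, g4⟩).exists_le_sylow
  have e : A = P := eq_of_le_of_card_ge hP (by rcases small P P.isPGroup' with r | r <;> omega)
  obtain ⟨h, rfl⟩ := MulAction.exists_smul_eq X P' P
  have : h * g * h⁻¹ ∈ A := e ▸ smul_mem_pointwise_smul g (MulAut.conj h) _ (hP' (mem_zpowers g))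
  have := hA _ this
  rw [conj_mul, conj_eq_one_iff] at this
  exact g2 this

theorem ns_of {X : Type*} [Group X] (h : IsSimpleGroup X) {a b : X} (hab : a * b ≠ b * a) :
    ¬ Group.IsSolvable X := fun r => hab (IsSimpleGroup.comm_iff_isSolvable.2 r a b)

theorem FD_map {X Y : Type*} [Group X] [Group Y] {q n : ℕ} (h : FD X q n) (f : X →* Y)
    (hf : Function.Injective f) : FD Y q n := by
  obtain ⟨R, g, ⟨r, hr, r1⟩, h1, h2, h3, h4⟩ := h
  refine ⟨R.map f, f g, ⟨f r, mem_map_of_mem f hr, fun e => r1 (hf (e.trans f.map_one.symm))⟩,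
    ?_, ?_, by rw [← map_pow, h3, map_one], fun i hi h0 => ?_⟩
  · rintro _ ⟨s, hs, rfl⟩
    rw [← map_pow, h1 s hs, map_one]
  · rintro _ ⟨s, hs, rfl⟩
    exact ⟨_, h2 s hs, by simp⟩
  · rintro _ ⟨s, hs, rfl⟩ e
    rw [h4 i hi h0 s hs (hf (by simpa using e)), map_one]

theorem FD_list {X : Type*} [Group X] [DecidableEq X] {n : ℕ} (l : List X) (g r₀ : X)
    (h : (l.all fun r => (l.all fun s => decide (r * s ∈ l)) && decide (r * r = 1) &&
      (l.any fun s => decide (g * r = s * g)) &&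
      (List.range n).all fun i => decide (0 < i → r * g ^ i = g ^ i * r → r = 1)) = true)
    (h' : 1 ∈ l ∧ r₀ ∈ l ∧ r₀ ≠ 1 ∧ g ^ n = 1) : FD X 2 n := by
  simp only [List.all_eq_true, Bool.and_eq_true, decide_eq_true_eq, List.any_eq_true,
    List.mem_range] at h
  let R : Subgroup X :=
    { carrier := {r | r ∈ l}
      one_mem' := h'.1
      mul_mem' := fun a b => (h _ a).1.1.1 _ b
      inv_mem' := fun {a} ha => by
        rw [inv_eq_of_mul_eq_one_right (h a ha).1.1.2]
        exact ha }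
  refine ⟨R, g, ⟨r₀, h'.2.1, h'.2.2.1⟩, fun r hr => ?_, fun r hr => ?_, h'.2.2.2,
    fun i hi h0 r hr => (h r hr).2 i hi h0⟩
  · rw [sq]
    exact (h r hr).1.1.2
  · obtain ⟨s, hs, e⟩ := (h r hr).1.2
    rw [e, mul_inv_cancel_right]
    exact hs

/-- a product of two transpositions as an even permutation -/
def ev {n : ℕ} (a b c d : Fin n) (h : a ≠ b := by decide) (h' : c ≠ d := by decide) :
    alternatingGroup (Fin n) :=
  ⟨swap a b * swap c d, by rw [mem_alternatingGroup, map_mul, sign_swap h, sign_swap h']; rfl⟩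

/-- an element of order seven -/
def x7 : L32 := ⟨!![0, 0, 1; 1, 0, 1; 0, 1, 0], by decide +kernel⟩
/-- an element of order three normalizing `x7` -/
def g3 : L32 := ⟨!![1, 0, 0; 0, 0, 1; 0, 1, 1], by decide +kernel⟩
/-- a transvection -/
def ta : L32 := ⟨!![1, 1, 0; 0, 1, 0; 0, 0, 1], by decide +kernel⟩
/-- a transvection -/
def tb : L32 := ⟨!![1, 0, 1; 0, 1, 0; 0, 0, 1], by decide +kernel⟩
/-- a transvection -/
def tc : L32 := ⟨!![1, 0, 0; 0, 1, 1; 0, 0, 1], by decide +kernel⟩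

theorem aut7 : orderOf x7 = 7 ∧ orderOf g3 = 3 ∧ g3 * x7 * g3⁻¹ = x7 ^ 2 :=
  ⟨ord_prime 7 (by decide +kernel) (by decide +kernel), ord_prime 3 (by decide +kernel)
    (by decide +kernel), mul_inv_eq_of_eq_mul (by decide +kernel)⟩

theorem fd_L32 : FD L32 2 3 := FD_list [1, ta, tb, ta * tb] g3 ta (by decide +kernel) (by decide +kernel)

theorem simple32 : IsSimpleGroup L32 := by
  have hc : center L32 = ⊥ := by
    rw [← Subgroup.card_eq_one, Class.card_center_SL]
    simp
  have := Class.PSL_isSimpleGroup (ι := Fin 3) (F := ZMod 2) (by simp)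
  exact (QuotientGroup.quotientBot.symm.trans
    (QuotientGroup.quotientMulEquivOfEq hc.symm)).isSimpleGroup

theorem char2 {F : Type} [Field F] [Fintype F] (h : Fintype.card F = 4) : CharP F 2 :=
  charP_of_card_eq_prime_pow (f := 2) h

theorem emb {X : Type*} [Group X] (h : IsL34 X) : ∃ f : L32 →* X, Function.Injective f := by
  obtain ⟨F, _, _, hF, ⟨e⟩⟩ := h
  have := char2 hF
  have := simple32
  let m : L32 →* SL(3, F) := Matrix.SpecialLinearGroup.map (ZMod.castHom (dvd_refl 2) F)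
  have hm : Function.Injective m := fun a b r => Subtype.ext
    (Matrix.map_injective (ZMod.castHom (dvd_refl 2) F).injective (congrArg Subtype.val r))
  let f : L32 →* PSL(3, F) := (QuotientGroup.mk' _).comp m
  refine ⟨e.symm.toMonoidHom.comp f, e.symm.injective.comp ?_⟩
  rw [← MonoidHom.ker_eq_bot_iff]
  refine (f.normal_ker.eq_bot_or_eq_top).resolve_right fun r => ?_
  have h1 : m ta ∈ center SL(3, F) :=
    (QuotientGroup.eq_one_iff _).1 (MonoidHom.mem_ker.1 (r ▸ mem_top ta : ta ∈ f.ker))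
  have h2 := mem_center_iff.1 h1 (m tc)
  rw [← map_mul, ← map_mul] at h2
  exact absurd (hm h2) (by decide +kernel)

theorem cyc_inv {n : ℕ} {t : Perm (Fin n)} (h1 : t * t = 1) (h2 : t ≠ 1) :
    ∃ k, t.cycleType = Multiset.replicate (k + 1) 2 ∧ 2 * (k + 1) ≤ n ∧ sign t = (-1) ^ (k + 1) := by
  have o : orderOf t = 2 := ord_prime 2 (by rw [sq, h1]) h2
  obtain ⟨k, hk⟩ := cycleType_prime_order (σ := t) (o ▸ Nat.prime_two)
  rw [o] at hk
  refine ⟨k, hk, ?_, ?_⟩
  · have := sum_cycleType_le t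
    rw [hk, Multiset.sum_replicate, Fintype.card_fin, smul_eq_mul] at this
    omega
  · rw [sign_of_cycleType, hk]
    simp [pow_add, pow_mul']

theorem conj_inv {n : ℕ} {s t : Perm (Fin n)} (h1 : t * t = 1) (h2 : t ≠ 1) (h3 : s * s = 1)
    (h4 : s ≠ 1) (h : sign s = sign t) (hn : n < 6 ∨ (n < 8 ∧ sign t = 1)) : IsConj s t := by
  obtain ⟨k, a1, a2, a3⟩ := cyc_inv h1 h2
  obtain ⟨l, b1, b2, b3⟩ := cyc_inv h3 h4
  rw [isConj_iff_cycleType_eq, a1, b1]
  rw [a3, b3] at h
  rw [a3] at hn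
  have hk : k < 3 := by omega
  have hl : l < 3 := by omega
  interval_cases k <;> interval_cases l <;>
    first | rfl | omega | exact absurd h (by decide) | exact absurd (hn.resolve_left (by omega)).2 (by decide)

theorem inv_conj {X : Type*} [Group X] {s t x : X} (h : IsConj s t) (e : s * x * s⁻¹ * x = 1) :
    ∃ c : X, t * (c * x * c⁻¹) * t⁻¹ * (c * x * c⁻¹) = 1 := by
  obtain ⟨c, rfl⟩ := isConj_iff.1 h
  exact ⟨c, by
    calc _ = c * (s * x * s⁻¹ * x) * c⁻¹ := by group
      _ = 1 := by rw [e]; group⟩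

theorem inv5 {n : ℕ} (hn : n < 8) {s x : alternatingGroup (Fin n)} (h3 : s * s = 1) (h4 : s ≠ 1)
    (hx : orderOf x = 5) (e : s * x * s⁻¹ * x = 1) (t : alternatingGroup (Fin n)) (h1 : t * t = 1)
    (h2 : t ≠ 1) : ∃ x : alternatingGroup (Fin n), orderOf x = 5 ∧ t * x * t⁻¹ * x = 1 := by
  obtain ⟨c, hc⟩ := inv_conj (conj_inv (congrArg Subtype.val h1) (fun r => h2 (Subtype.ext r))
    (congrArg Subtype.val h3) (fun r => h4 (Subtype.ext r))
    ((mem_alternatingGroup.1 s.2).trans (mem_alternatingGroup.1 t.2).symm)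
    (Or.inr ⟨hn, mem_alternatingGroup.1 t.2⟩)) (congrArg Subtype.val e)
  refine ⟨⟨c * x * c⁻¹, alternatingGroup.normal.conj_mem _ x.2 c⟩, ?_, Subtype.ext hc⟩
  rw [← Subgroup.orderOf_coe, ← hx, ← Subgroup.orderOf_coe]
  exact (MulAut.conj c).orderOf_eq _

end Fn

end Cfsg.Agent.Eo8
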