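import Mathlib
import Cfsg.Agent.Eo8.Ext

/-!
# Modules on which elements of order five and seven have trivial norm
-/

set_option autoImplicit false
set_option linter.unusedSectionVars false

namespace Cfsg.Agent.Eo8

open Subgroup Cfsg PLocal.Amb
open Cfsg.Agent.PLocal.CP (IsCharP)
open scoped MatrixGroups

universe u

variable {G : Type*} [Group G] [Finite G]

/-- elements of order 5 and 7 act without fixed points, with trivial norm (see `Ext.rho`) -/
def Nm {X W : Type*} [Group X] [Group W] (ρ : X →* MulAut W) : Prop :=
  ∀ x : X, orderOf x = 5 ∨ orderOf x = 7 → ∀ v : W, (ρ x v = v → v = 1) ∧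
    ((List.range (orderOf x)).map fun i => ρ (x ^ i) v).prod = 1

theorem Nm.comp {X Y W : Type*} [Group X] [Group Y] [Group W] {ρ : X →* MulAut W} (h : Nm ρ)
    (ι : Y →* X) (hι : Function.Injective ι) : Nm (ρ.comp ι) := fun x hx v => by
  have := h (ι x) (by rwa [orderOf_injective ι hι]) v
  rw [orderOf_injective ι hι] at this
  simpa only [MonoidHom.comp_apply, map_pow] using this

end Cfsg.Agent.Eo8
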