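import Mathlib
import Cfsg.Agent.Eo8.Nm
import Cfsg.Agent.Eo8.Fin
import Cfsg.Agent.F24.TrioAux

/-!
# Modules for `L₃(2)`
-/

set_option autoImplicit false
set_option linter.unusedSectionVars false

namespace Cfsg.Agent.Eo8

open Subgroup Cfsg PLocal.Amb
open Cfsg.Agent.PLocal.CP (IsCharP)
open scoped MatrixGroups

universe u

variable {G : Type*} [Group G] [Finite G]

variable {M Q V : Subgroup G}

namespace La

/-- the action of the two generators on the 21 flags -/
def pm (c : Bool) : Fin 21 → Fin 21 :=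
  if c then ![1, 2, 4, 6, 7, 9, 10, 12, 13, 14, 16, 0, 11, 15, 18, 3, 8, 5, 20, 17, 19]
  else ![0, 3, 5, 1, 8, 2, 11, 7, 4, 15, 10, 6, 16, 17, 19, 9, 12, 13, 18, 14, 20]

/-- the action of a word on a list of flags -/
def act (w : List Bool) (l : List (Fin 21)) : List (Fin 21) := w.foldr (fun c l => l.map (pm c)) l

/-- a sum of translates of relations -/
def comb (R : List (List (Fin 21))) (c : List (List Bool × ℕ)) : List (Fin 21) :=
  (c.map fun p => act p.1 (R.getD p.2 [])).flatten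

/-- an orbit of the element of order seven -/
def orb (i : Fin 21) : List (Fin 21) := (List.range 7).map fun k => (pm true)^[k] i

/-- the certificate of one stage -/
def St (R E : List (List (Fin 21))) (C : List (List ℕ × List (List Bool × ℕ))) : Prop :=
  ∀ c, ∀ l ∈ E, ∃ p ∈ C, ∀ k, (act [c] l ++ (comb E (p.1.map fun j => ([], j)) ++ comb R p.2)).count k % 2 = 0

instance (R E C) : Decidable (St R E C) := by unfold St; infer_instance

section
variable {W : Type*} [CommGroup W] {f : Fin 21 → W} {A : Bool → W →* W} (sq : ∀ w : W, w * w = 1)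
  (hA : ∀ c i, A c (f i) = f (pm c i))
include hA

theorem act_one (c : Bool) (l : List (Fin 21)) : ((l.map (pm c)).map f).prod = A c (l.map f).prod := by
  rw [map_list_prod, List.map_map, List.map_map]
  exact congrArg _ (List.map_congr_left fun i _ => (hA c i).symm)

theorem comb_mem {U : Subgroup W} {R : List (List (Fin 21))} (hR : ∀ r ∈ R, (r.map f).prod ∈ U)
    {c : List (List Bool × ℕ)} (hU : (∀ p ∈ c, p.1 = []) ∨ U = ⊥) : ((comb R c).map f).prod ∈ U := by
  rw [comb, List.map_flatten, List.prod_flatten]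
  refine U.list_prod_mem fun x hx => ?_
  simp only [List.map_map, List.mem_map] at hx
  obtain ⟨⟨w, j⟩, hp, rfl⟩ := hx
  have k : ((R.getD j []).map f).prod ∈ U := by
    rw [List.getD_eq_getElem?_getD]
    rcases e : R[j]? with _ | r
    exacts [one_mem _, hR r (List.mem_of_getElem? e)]
  rcases hU with hU | rfl
  · obtain rfl : w = [] := hU _ hp
    exact k
  · clear hp
    induction w with
    | nil => exact k
    | cons c w ih => exact (act_one hA c _).trans ((congrArg (A c) (mem_bot.1 ih)).trans (map_one _))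

include sq

theorem par {l l' : List (Fin 21)} (h : ∀ k, (l ++ l').count k % 2 = 0) : (l.map f).prod = (l'.map f).prod := by
  have : ((l ++ l').map f).prod = 1 := by
    rw [Finset.prod_list_map_count]
    refine Finset.prod_eq_one fun k _ => ?_
    obtain ⟨r, hr⟩ := Nat.even_iff.2 (h k)
    rw [hr, pow_add, sq]
  rw [List.map_append, List.prod_append] at this
  exact mul_right_cancel (this.trans (sq _).symm)

theorem stage [Finite W] (irr : ∀ U : Subgroup W, (∀ c, ∀ u ∈ U, A c u ∈ U) → U = ⊥ ∨ U = ⊤)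
    (h8 : ¬ Nat.card W ≤ 8) {R : List (List (Fin 21))} (hR : ∀ r ∈ R, (r.map f).prod ∈ (⊥ : Subgroup W))
    {x : List (Fin 21)} (y z : List (Fin 21)) (C) (h : St R [x, y, z] C) :
    ∀ r ∈ R ++ [x], (r.map f).prod ∈ (⊥ : Subgroup W) := by
  classical
  let s : Finset W := {(x.map f).prod, (y.map f).prod, (z.map f).prod}
  have m : ∀ l ∈ [x, y, z], (l.map f).prod ∈ closure (s : Set W) := fun l hl => subset_closure (by
    simp only [List.mem_cons, List.not_mem_nil, or_false] at hl
    rcases hl with rfl | rfl | rfl <;> simp [s])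
  have k : ∀ c, ∀ l ∈ [x, y, z], A c (l.map f).prod ∈ closure (s : Set W) := fun c l hl => by
    obtain ⟨p, -, e⟩ := h c l hl
    rw [← act_one hA, show l.map (pm c) = act [c] l from rfl, par sq hA e, List.map_append, List.prod_append]
    exact mul_mem (comb_mem hA m (.inl (by simp))) (bot_le (a := closure (s : Set W)) (comb_mem hA hR (.inr rfl)))
  rcases irr (closure s) (fun c => (closure_le ((closure (s : Set W)).comap (A c))).2 fun u hu => by
    simp only [s, Finset.coe_insert, Finset.coe_singleton] at hu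
    rcases hu with rfl | rfl | rfl <;> exact k c _ (by simp)) with e | e
  · intro r hr
    rcases List.mem_append.1 hr with hr | hr
    exacts [hR r hr, List.mem_singleton.1 hr ▸ e.le (m x (by simp))]
  · refine (h8 ((Nat.le_of_dvd (by positivity) (card_dvd_exponent_pow_rank' W (n := 2) fun g => by
      rw [pow_two, sq])).trans (Nat.pow_le_pow_right (by decide) ((Group.rank_le e).trans Finset.card_le_three)))).elim

theorem core [Finite W] (irr : ∀ U : Subgroup W, (∀ c, ∀ u ∈ U, A c u ∈ U) → U = ⊥ ∨ U = ⊤)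
    (hN : ∀ i, ((orb i).map f).prod = 1) (h0 : f 0 ≠ 1) : Nat.card W ≤ 8 := by
  by_contra h8
  have r0 : ∀ r ∈ [orb 0, orb 3, orb 5], (r.map f).prod ∈ (⊥ : Subgroup W) := by
    simp only [List.mem_cons, List.not_mem_nil, or_false]
    rintro _ (rfl | rfl | rfl) <;> exact hN _
  have r1 := stage sq hA irr h8 r0 (x := [0, 2, 4, 5, 8, 10, 13, 17, 20]) [1, 4, 5, 7, 9, 13, 15, 16, 19]
    [2, 3, 7, 8, 9, 12, 14, 15, 17] [([0], []), ([1], []), ([2], []), ([0, 1], [([], 0), ([], 1), ([], 2)])]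
    (by decide +kernel)
  have r2 := stage sq hA irr h8 r1 (x := [0, 10, 20]) [1, 16, 19] [2, 8, 17]
    [([0], []), ([1], []), ([2], []), ([0, 2], [([], 3)]), ([0, 1], [([], 3), ([true], 3), ([true, true], 3)])]
    (by decide +kernel)
  have r3 := stage sq hA irr h8 r2 (x := [0, 7, 10, 12, 13, 16, 17, 18, 20]) [1, 5, 8, 11, 12, 15, 16, 19, 20]
    [0, 2, 3, 8, 9, 11, 13, 17, 19] [([0], []), ([1], []), ([2], []), ([0, 2], [([], 0), ([], 1), ([], 2)]),
      ([0, 1], [([], 0), ([], 1), ([], 2)])] (by decide +kernel)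
  have r4 := stage sq hA irr h8 r3 (x := [0, 13, 17]) [1, 5, 15] [2, 3, 9]
    [([0], []), ([1], []), ([2], []), ([0, 1], [([true, true, true], 5)])] (by decide +kernel)
  have := (par sq hA (l := [0]) (by decide +kernel)).trans (comb_mem hA r4 (c := [([], 5), ([], 1), ([], 3), ([], 4),
    ([], 6), ([true, false], 2), ([false, true, false], 1)]) (.inr rfl))
  exact h0 (by simpa using this)

end

/-- the matrix with a given code -/
def mk (n : ℕ) : Matrix (Fin 3) (Fin 3) (ZMod 2) := Matrix.of fun i j => ((n / 2 ^ (3 * i.1 + j.1) : ℕ) : ZMod 2)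

/-- the element with a given code -/
def el (n : ℕ) : L32 :=
  if h : mk n 0 0 * mk n 1 1 * mk n 2 2 - mk n 0 0 * mk n 1 2 * mk n 2 1 - mk n 0 1 * mk n 1 0 * mk n 2 2 +
    mk n 0 1 * mk n 1 2 * mk n 2 0 + mk n 0 2 * mk n 1 0 * mk n 2 1 - mk n 0 2 * mk n 1 1 * mk n 2 0 = 1 then
    ⟨mk n, (Matrix.det_fin_three _).trans h⟩ else 1

/-- the generators -/
def gn (c : Bool) : L32 := if c then el 94 else el 275

/-- coset representatives -/
def rp (i : Fin 21) : L32 :=
  el (![273, 94, 142, 93, 141, 143, 86, 99, 140, 85, 161, 84, 107, 267, 95, 87, 106, 266, 98, 92, 177] i)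

theorem facts : (∀ c i, ∃ i₁ < 2, ∃ i₂ < 2, ∃ i₃ < 2,
      gn c * rp i = rp (pm c i) * (el 277 ^ i₁ * el 275 ^ i₂ * el 305 ^ i₃)) ∧ rp 0 = 1 ∧
    (gn true ^ 7 = 1 ∧ gn true ≠ 1) ∧ ((gn false * gn true) ^ 3 = 1 ∧ gn false * gn true ≠ 1) ∧
    ((gn false * gn true ^ 3) ^ 2 ^ 1 ≠ 1 ∧ (gn false * gn true ^ 3) ^ 2 ^ (1 + 1) = 1) ∧
    el 277 * el 277 = 1 ∧ el 275 * el 275 = 1 ∧ el 305 * el 305 = 1 ∧ el 277 * el 275 = el 275 * el 277 ∧
    el 277 * el 305 = el 305 * el 277 ∧ el 275 * el 305 = el 305 * (el 275 * el 277) := by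
  decide +kernel

theorem top {H : Subgroup L32} (h : ∀ c, gn c ∈ H) : H = ⊤ := by
  obtain ⟨-, -, a, b, c, -⟩ := facts
  have := Fact.mk Nat.prime_two
  have := simple_L32
  have d7 := ord_prime 7 a.1 a.2 ▸ H.orderOf_dvd_natCard (h true)
  have d3 := ord_prime 3 b.1 b.2 ▸ H.orderOf_dvd_natCard (mul_mem (h false) (h true))
  have d4 := orderOf_eq_prime_pow c.1 c.2 ▸ H.orderOf_dvd_natCard (mul_mem (h false) (pow_mem (h true) 3))
  have e := H.card_mul_index
  rw [card_L32] at e
  obtain ⟨k, hk⟩ : 84 ∣ Nat.card H := by omega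
  rw [hk, mul_assoc] at e
  rcases (Nat.dvd_prime Nat.prime_two).1 (Dvd.intro_left k (show k * H.index = 2 by omega)) with i | i
  · exact index_eq_one.1 i
  · exact ((normal_of_index_eq_two i).eq_bot_or_eq_top).resolve_left fun e => a.2 (mem_bot.1 (e ▸ h true))

theorem step {W : Type*} [CommGroup W] (sq : ∀ w : W, w * w = 1) (σ : W →* W) (hσ : ∀ v, σ (σ v) = v)
    {U : Subgroup W} (h : ∃ v ∈ U, v ≠ 1) (hU : ∀ v ∈ U, σ v ∈ U) : ∃ v ∈ U ⊓ σ.eqLocus (.id W), v ≠ 1 := by
  obtain ⟨v, hv, v1⟩ := h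
  by_cases e : σ v = v
  · exact ⟨v, ⟨hv, e⟩, v1⟩
  · exact ⟨σ v * v, ⟨mul_mem (hU v hv) hv, show σ _ = _ by rw [map_mul, hσ, mul_comm]; rfl⟩,
      fun e' => e (mul_right_cancel (e'.trans (sq v).symm))⟩

end La

/-- Let `S` be the group of upper unitriangular matrices, `P₁, P₂` the stabilizers of a point and a
line (of an incident pair fixed by `S`), `yᵢ ∈ Pᵢ` of order 3, `Nᵢ = 1 + yᵢ + yᵢ²`.  Take `v ≠ 0` fixed
by the 2-group `S`; `Nᵢ v` is fixed by `Pᵢ = ⟨yᵢ⟩ S`.  If `N₁ v = N₂ v = 0`: on the 21 flags (cosets of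
`S`) the sums over flags on a point, on a line, and over the orbits of 7-elements (24 perfect
matchings of the Heawood graph) have rank 21 over `𝔽₂` (python-checked), so `v = 0` (certificate,
`prod_eq_one`).  Composing `ρ` with transpose-inverse we may assume `w ≠ 0` is fixed by the
point stabilizer `P₁`; `w p` for the 7 points `p`, `∑ w p = 0`.  Let `u ℓ = ∑ p ∈ ℓ, w p`.  If all
`u ℓ = 0`, `W` is generated by three of the `w p`.  Otherwise `W` is generated by the `u ℓ`
(irreducibility) and `∑ ℓ ∋ p, u ℓ = 3 w p + ∑ q ≠ p, w q = 0`, so again by three elements.  So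
`card W ≤ 8`, and `card W ≡ 1 mod 7`. -/
theorem card8 {W : Type*} [Group W] [Finite W] [Nontrivial W] (sq : ∀ w : W, w * w = 1)
    {ρ : L32 →* MulAut W} (hN : Nm ρ)
    (irr : ∀ U : Subgroup W, (∀ g, ∀ u ∈ U, ρ g u ∈ U) → U = ⊥ ∨ U = ⊤) : Nat.card W = 8 := by
  classical
  let _ : CommGroup W := { ‹Group W› with mul_comm := fun a b => comm_of_sq (sq a) (sq b) (sq _) }
  obtain ⟨f1, f2, f3, -, -, z2, s2, t2, zs, zt, st⟩ := La.facts
  have o7 := ord_prime 7 f3.1 f3.2
  have k : ∀ {a b c d : L32}, a * b = c * d → ∀ v, ρ a (ρ b v) = ρ c (ρ d v) := fun e v => by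
    rw [← MulAut.mul_apply, ← map_mul, e, map_mul, MulAut.mul_apply]
  have k2 : ∀ {a : L32}, a * a = 1 → ∀ v, ρ a (ρ a v) = v := fun e v => by
    rw [← MulAut.mul_apply, ← map_mul, e, map_one, MulAut.one_apply]
  have a1 := La.step sq (ρ (La.el 277)).toMonoidHom (k2 z2) (U := ⊤)
    ((exists_ne 1).imp fun _ h => ⟨trivial, h⟩) fun _ _ => trivial
  have a2 := La.step sq (ρ (La.el 275)).toMonoidHom (k2 s2) a1
    fun v hv => ⟨trivial, (k zs v).trans (congrArg _ hv.2)⟩
  obtain ⟨v, ⟨⟨⟨-, hz⟩, hs⟩, ht⟩, v1⟩ := La.step sq (ρ (La.el 305)).toMonoidHom (k2 t2) a2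
    fun v hv => ⟨⟨trivial, (k zt v).trans (congrArg _ hv.1.2)⟩, (k st v).trans (congrArg _ (by
      rw [map_mul, MulAut.mul_apply]; exact (congrArg _ hv.1.2).trans hv.2))⟩
  have hA : ∀ c i, (ρ (La.gn c)).toMonoidHom (ρ (La.rp i) v) = ρ (La.rp (La.pm c i)) v := fun c i => by
    obtain ⟨a, -, b, -, d, -, e⟩ := f1 c i
    refine (k e v).trans (congrArg _ ?_)
    let T := (MulAction.stabilizer (MulAut W) v).comap ρ
    exact T.mul_mem (T.mul_mem (T.pow_mem hz a) (T.pow_mem hs b)) (T.pow_mem ht d)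
  have h8 := La.core sq hA (fun U hU => irr U fun g u hu => ?_) (fun i => ?_) (by rwa [f2, map_one])
  · have := Fact.mk Nat.prime_seven
    have := Fintype.ofFinite W
    have m := Equiv.Perm.card_fixedPoints_modEq (p := 7) (n := 1) (f := MulAction.toEndHom (α := W) (ρ (La.gn true)))
      (by rw [← map_pow, ← map_pow, pow_one, f3.1, map_one, map_one])
    replace m : Nat.card W % 7 = 1 % 7 := by
      rw [Nat.card_eq_fintype_card]
      exact m.trans (congrArg (· % 7) ((@Fintype.card_eq_one_iff _ (_)).2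
        ⟨⟨1, map_one (ρ (La.gn true))⟩, fun v => Subtype.ext ((hN _ (.inr o7) v).1 v.2)⟩))
    have := Finite.one_lt_card (α := W)
    omega
  · let H : Submonoid L32 :=
      { carrier := {g | ∀ u ∈ U, ρ g u ∈ U}
        one_mem' := fun u hu => by rwa [map_one]
        mul_mem' := fun h h' u hu => by rw [map_mul]; exact h _ (h' u hu) }
    have i : ∀ {g}, g ∈ H → g⁻¹ ∈ H := fun {g} hg => by
      rw [← mul_one g⁻¹, ← pow_orderOf_eq_one g, ← Nat.sub_add_cancel (orderOf_pos g), pow_succ', inv_mul_cancel_left]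
      exact H.pow_mem hg _
    exact (La.top (H := ⟨H, i⟩) hU).ge trivial u hu
  · refine .trans ?_ (hN _ (.inr o7) (ρ (La.rp i) v)).2
    rw [o7, La.orb, List.map_map]
    refine congrArg _ (List.map_congr_left fun n hn => ?_)
    clear hn
    induction n with
    | zero => simp
    | succ n ih =>
      rw [Function.comp_apply, Function.iterate_succ_apply', ← hA, pow_succ', map_mul, MulAut.mul_apply, ← ih]; rfl

theorem Ext.card8 (h : Ext L32 M Q) (hV : ZV M Q V) (hm : ∀ W ≤ V, M ≤ 𝐍[W] → W = ⊥ ∨ W = V) :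
    Nat.card V = 8 := by
  obtain ⟨π, hs, hπ⟩ := h.hom
  obtain ⟨ρ, e, hN⟩ := h.rho hV hs hπ
  have := (nontrivial_iff_ne_bot V).2 hV.V1
  refine Eo8.card8 (fun w => Subtype.ext (hV.sq w w.2)) hN fun U hU => ?_
  rcases hm (U.map V.subtype) (map_subtype_le U) (le_normalizer_iff.2 (by
    rintro m hm _ ⟨u, hu, rfl⟩
    exact ⟨_, hU (π ⟨m, hm⟩) u hu, e ⟨m, hm⟩ u⟩)) with k | k
  · exact .inl ((map_eq_bot_iff_of_injective U V.subtype_injective).1 k)
  · exact .inr (map_injective V.subtype_injective (k.trans (by rw [← MonoidHom.range_eq_map, range_subtype])))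

/-- Choose a basis of `V`; `M` acts by invertible matrices over `ZMod 2` (determinant 1) with kernel
`M ⊓ 𝐂[V] = Q` (`NSl.cent`); surjective since `card M = 168 * card Q`. -/
theorem Ext.nat (h : Ext L32 M Q) (hV : ZV M Q V) (h8 : Nat.card V = 8) :
    ∃ (π : M →* L32) (e : Multiplicative (Fin 3 → ZMod 2) →* G), Function.Surjective π ∧
      (∀ m, π m = 1 ↔ (m : G) ∈ Q) ∧ Function.Injective e ∧ e.range = V ∧
      ∀ (m : M) (v : Fin 3 → ZMod 2), m * e (Multiplicative.ofAdd v) * (m : G)⁻¹ =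
        e (Multiplicative.ofAdd ((π m).1.mulVec v)) := by
  obtain ⟨u, hu, rfl⟩ : ∃ u : Multiplicative (Fin 3 → ZMod 2) →* G, Function.Injective u ∧ u.range = V := by
    let : CommGroup V := { mul_comm := fun x y => Subtype.ext (hV.comm x.2 y.2) }
    let : Module (ZMod 2) (Additive V) := AddCommGroup.zmodModule (n := 2) fun x =>
      Subtype.ext ((pow_two _).trans (hV.sq _ x.toMul.2))
    have hr : Module.finrank (ZMod 2) (Additive V) = 3 := by
      have h1 := Module.natCard_eq_pow_finrank (K := ZMod 2) (V := Additive V)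
      rw [Nat.card_zmod, show Nat.card (Additive V) = Nat.card V from rfl, h8] at h1
      exact (Nat.pow_right_injective le_rfl (show 2 ^ 3 = _ from h1)).symm
    let e := AddEquiv.toMultiplicativeLeft
      (Module.finBasisOfFinrankEq (ZMod 2) (Additive V) hr).equivFun.symm.toAddEquiv
    exact ⟨V.subtype.comp e.toMonoidHom, V.subtype_injective.comp e.injective, by
      rw [MonoidHom.range_comp, MonoidHom.range_eq_top.2 (show Function.Surjective e.toMonoidHom from
        e.surjective), ← MonoidHom.range_eq_map, range_subtype]⟩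
  obtain ⟨α, hα⟩ := F24.exists_SL_hom u hu
  have n := h.nsl (fun e => hV.V1 (le_bot_iff.1 (e ▸ hV.VQ))) n57_L32 rk_L32 ns_L32
  have k : ∀ m : M, α.comp (inclusion hV.nV) m = 1 ↔ (m : G) ∈ Q := fun m => by
    refine ⟨fun e => n.cent hV ⟨m.2, ?_⟩, fun hm => Subtype.ext (Matrix.ext_of_mulVec_single fun i => ?_)⟩
    · rintro _ ⟨a, rfl⟩
      have := hα (inclusion hV.nV m) a.toAdd
      rw [show α (inclusion hV.nV m) = 1 from e, Matrix.SpecialLinearGroup.coe_one, Matrix.one_mulVec] at this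
      exact (mul_inv_eq_iff_eq_mul.1 this).symm
    · have := hα (inclusion hV.nV m) (Pi.single i 1)
      rw [coe_inclusion, ← hV.cV hm _ ⟨_, rfl⟩, mul_inv_cancel_right] at this
      rw [Matrix.SpecialLinearGroup.coe_one, Matrix.one_mulVec]
      exact (hu this).symm
  refine ⟨α.comp (inclusion hV.nV), u, MonoidHom.range_eq_top.1 (eq_top_of_card_eq _ ?_), k, hu, rfl,
    fun m v => hα (inclusion hV.nV m) v⟩
  have e := (α.comp (inclusion hV.nV)).ker.card_mul_index
  rw [index_ker, h.card, show (α.comp (inclusion hV.nV)).ker = Q.subgroupOf M from Subgroup.ext k,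
    Nat.card_congr (subgroupOfEquivOfLe h.le).toEquiv] at e
  exact Nat.eq_of_mul_eq_mul_left Nat.card_pos e

end Cfsg.Agent.Eo8
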