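import Mathlib
import Cfsg.Agent.Eo8.Api
import Cfsg.Agent.PLocal.Hyperplane
import Cfsg.Agent.S0044

/-!
# Subgroups of characteristic two: elements of order three
-/

set_option autoImplicit false
set_option linter.unusedSectionVars false

namespace Cfsg.Agent.Eo8

open Subgroup Cfsg PLocal.Amb
open Cfsg.Agent.PLocal.CP (IsCharP)
open scoped MatrixGroups

universe u

variable {G : Type*} [Group G] [Finite G]

/-! Throughout `R = 𝐑[X]`, bars denote images in `X ⧸ R`.  For solvable `X`, `F = F(X̄)` (Fitting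
subgroup) has odd order (as `O₂(X̄) = 1`) and `C(F) ≤ F` (`S0044`).  It may be convenient to prove
first a lemma `exists_F`: there is `Y` with `R ≤ Y ≤ X`, `X ≤ 𝐍[Y]`, `Odd (R.relIndex Y)`, `Y ⧸ R`
nilpotent and every `x ∈ X` with `∀ y ∈ Y, cm y x ∈ R` lies in `Y`, and to work in `↥X ⧸ pCore 2 X`
(which is `P8` again).  3-subgroups of `X̄` lift to 3-subgroups of `X` (Sylow in the preimage). -/

variable {X : Subgroup G}

theorem loc_zp {y x : G} (hy : orderOf y = 3) (hx : x ∈ zpowers y) : x = 1 ∨ x = y ∨ x = y⁻¹ := by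
  classical
  obtain ⟨n, hn, rfl⟩ := Finset.mem_image.1 (mem_zpowers_iff_mem_range_orderOf.1 hx)
  rw [hy, Finset.mem_range] at hn
  interval_cases n
  · exact .inl (pow_zero y)
  · exact .inr (.inl (pow_one y))
  · exact .inr (.inr (eq_inv_of_mul_eq_one_left ((pow_succ y 2).symm.trans
      (orderOf_dvd_iff_pow_eq_one.1 hy.dvd))))

theorem loc_ex {A : Subgroup G} (h : ¬ Nat.card A ≤ 4) (a b c d : G) :
    ∃ x ∈ A, x ≠ a ∧ x ≠ b ∧ x ≠ c ∧ x ≠ d := by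
  classical
  by_contra n
  refine h ((Set.ncard_le_ncard (s := (A : Set G)) (t := (({a, b, c, d} : Finset G) : Set G))
    fun x hx => ?_).trans ((Set.ncard_coe_finset _).trans_le Finset.card_le_four))
  by_contra m
  simp only [Finset.coe_insert, Finset.coe_singleton, Set.mem_insert_iff, Set.mem_singleton_iff,
    not_or] at m
  exact n ⟨x, hx, m⟩

theorem loc_cop {A B : Subgroup G} (hA : IsPGroup 3 A) (hB : IsPGroup 2 B) :
    (Nat.card A).Coprime (Nat.card B) :=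
  haveI := Fact.mk Nat.prime_three
  IsPGroup.coprime_card_of_ne 3 2 (by norm_num) _ _ hA hB

theorem loc_solv {B : Subgroup G} (hB : IsPGroup 2 B) : Group.IsSolvable B :=
  haveI := hB.isNilpotent
  inferInstance

/-- If `9 ∣ card P` take `a, b` from `P8.exists_e9`, `E = ⟨a, b⟩` is Sylow in `R ⊔ E`, which is
normalized by `t`; Frattini gives `t' = r * t` normalizing `E`, then `cm e t' ∈ E ⊓ R = ⊥`.  For
`1 ≠ c ∈ E`, `t'` and `R ⊓ 𝐜[c]` lie in the 2-group `R ⊔ ⟨t⟩` and commute with `c`, so commute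
(`P8.comm3`).  By `le_of_e9` `t'` centralizes `R`, so `t' ∈ R`, `t ∈ R`. -/
theorem P8.c3le (h : P8 G) (hX : IsCharP 2 X) {t : G} (ht : t ∈ X) (t1 : t ∉ 𝐑[X])
    (t2 : t * t ∈ 𝐑[X]) {P : Subgroup G} (hP : IsPGroup 3 P) (PX : P ≤ X)
    (e : ∀ y ∈ P, cm y t ∈ 𝐑[X]) : Nat.card P ≤ 3 := by
  have := Fact.mk Nat.prime_three
  by_contra n
  obtain ⟨a, ha, b, hb, a3, b3, c, hn⟩ :=
    h.exists_e9 (Misc.pow_succ_dvd_card_of_lt hP (k := 1) (not_le.1 n))
  have hR := isPGroup_pCoreOf 2 X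
  have nR := le_normalizer_pCoreOf 2 X
  have tT : t ∈ zpowers t ⊔ 𝐑[X] := mem_sup_left (mem_zpowers t)
  have TX : zpowers t ⊔ 𝐑[X] ≤ X := sup_le (zpowers_le.2 ht) (pCoreOf_le 2 X)
  have hT : IsPGroup 2 ↥(zpowers t ⊔ 𝐑[X]) := by
    obtain ⟨k, hk⟩ := isPGroup_iff.1 hR _ t2
    exact isPGroup_sup (isPGroup_zpowers ⟨k + 1, by rw [pow_succ', pow_mul, pow_two, hk]⟩) hR
      ((zpowers_le.2 ht).trans nR)
  have fx : ∀ y ∈ P, y * t * y⁻¹ * t⁻¹ ∈ 𝐑[X] := fun y hy => by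
    simpa only [cm, inv_inv, mul_assoc] using e _ (inv_mem hy)
  obtain ⟨d, ⟨dT, dP⟩, hd⟩ := S0022.result P _ (le_normalizer_iff_cj.2 fun y hy => by
      rw [cj_sup, cj_of_mem_normalizer (nR (PX hy)), MonoidHom.map_zpowers]
      exact sup_le (zpowers_le.2 (by simpa using mul_mem (mem_sup_right (fx y hy)) tT)) le_sup_right)
    (loc_cop hP hT) (.inr (loc_solv hT)) 𝐑[X] le_sup_right (TX.trans nR) (PX.trans nR) t tT fx
  have k : 𝐑[X] ≤ 𝐜[d] := le_of_e9 hR a3 b3 c hn (nR (PX ha)) (nR (PX hb)) fun i j h1 x hx =>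
    have m := mul_mem (pow_mem ha i) (pow_mem hb j)
    mem_c1.2 (h.comm3 (ord_prime 3 (h.three hP m) h1) hT (mem_sup_right hx.1) dT (mem_c1.1 hx.2)
      (dP _ m).symm)
  exact t1 (by
    simpa using mul_mem (hX ⟨TX dT, mem_cent.2 fun u hu => mem_c1.1 (k hu)⟩) (inv_mem hd))

/-- what is used about `X ⧸ O₂(X)` and its Fitting subgroup -/
structure Bar {H : Type*} [Group H] (F : Subgroup H) : Prop where
  p8 : P8 H
  nm : F.Normal
  odd : Odd (Nat.card F)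
  cen : 𝐂[F] ≤ F
  c3 : ∀ t : H, t ≠ 1 → t * t = 1 → ∀ P : Subgroup H, IsPGroup 3 P → P ≤ 𝐜[t] → Nat.card P ≤ 3

variable (X) in
/-- the projection to `X ⧸ O₂(X)` -/
abbrev pr : X →* X ⧸ pCore 2 X := QuotientGroup.mk' _

theorem pr_eq_one {x : X} : pr X x = 1 ↔ (x : G) ∈ 𝐑[X] :=
  (QuotientGroup.eq_one_iff x).trans mem_map_subtype.symm

theorem pr_comm {x y : X} : pr X x * pr X y = pr X y * pr X x ↔ cm (x : G) y ∈ 𝐑[X] := by
  rw [← cm_eq_one, ← map_cm, pr_eq_one]; rfl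

theorem P8.bar (h : P8 G) (hX : IsCharP 2 X) [Group.IsSolvable X] :
    Bar (fittingSubgroup (X ⧸ pCore 2 X)) := by
  have := Fact.mk Nat.prime_three
  refine ⟨(h.sub X).quot _, inferInstance, Nat.coprime_two_right.1
    ((Grp.pPrimeCore_coprime 2 _).coprime_dvd_left (card_dvd_of_le
      (Grp.fitting_le_pPrimeCore_of_pCore_eq_bot (Grp.pCore_quotient_pCore 2 X)))),
    Grp.centralizer_fitting_le _, fun t t1 t2 P hP hc => ?_⟩
  obtain ⟨t, rfl⟩ := QuotientGroup.mk'_surjective _ t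
  obtain ⟨T, hT⟩ := exists_isSyl 3 (P.comap (pr X))
  have k := hT.map (pr X)
  rw [map_comap_eq_self_of_surjective (QuotientGroup.mk'_surjective _)] at k
  rw [k.eq hP k.le le_rfl]
  refine (Nat.le_of_dvd Nat.card_pos (card_map_dvd _ _)).trans ?_
  rw [← card_map_of_injective X.subtype_injective]
  refine h.c3le hX t.2 (mt pr_eq_one.2 t1) (pr_eq_one.1 ((map_mul _ t t).trans t2)) (hT.pgrp.map _)
    (map_subtype_le _) ?_
  rintro _ ⟨y, hy, rfl⟩
  exact pr_comm.1 (mem_c1.1 (hc (hT.le hy)))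

namespace Bar

variable {F : Subgroup G} (h : Bar F) {s g t y : G}
include h

theorem le_N (L : Subgroup G) : L ≤ 𝐍[F] := haveI := h.nm; le_normalizer_of_normal

theorem cube (t1 : t ≠ 1) (t2 : t * t = 1) (hy : y ∈ F) (c : y * t = t * y) : y ^ 3 = 1 :=
  eq_one_of_pow (m := 8) (n := Nat.card F)
    (by rw [← pow_mul]; exact h.p8.c2 (ord_prime 2 ((pow_two t).trans t2) t1) c.symm)
    (orderOf_dvd_iff_pow_eq_one.1 (F.orderOf_dvd_natCard (pow_mem hy 3)))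
    (Nat.Coprime.pow_left 3 h.odd.coprime_two_left)

theorem eq_zp (t1 : t ≠ 1) (t2 : t * t = 1) (hy : orderOf y = 3) (c : y * t = t * y) :
    F ⊓ 𝐜[t] ≤ zpowers y := by
  have k : zpowers y ≤ 𝐜[t] := zpowers_le.2 (mem_c1.2 c)
  refine le_sup_right.trans (eq_of_le_of_card_ge (le_sup_left : zpowers y ≤ _) ?_).ge
  rw [Nat.card_zpowers, hy]
  exact h.c3 t t1 t2 _ (isPGroup_sup (isPGroup_zpowers ⟨1, by rw [pow_one, ← hy, pow_orderOf_eq_one]⟩)
    (isPGroup_iff.2 fun x hx => ⟨1, by rw [pow_one]; exact h.cube t1 t2 hx.1 (mem_c1.1 hx.2)⟩)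
    (le_normalizer_inf (h.le_N _) (k.trans le_normalizer))) (sup_le k inf_le_right)

theorem four (s2 : s * s = 1) (g2 : g * g = 1) (c : s * g = g * s) (s1 : s ≠ 1) (g1 : g ≠ 1)
    (gs : g * s ≠ 1) : ∃ t, (t = g ∨ t = g * s) ∧ t ≠ 1 ∧ t * t = 1 ∧ ∃ y ∈ F, orderOf y = 3 ∧
      y * t = t * y ∧ s * y * s⁻¹ * y = 1 := by
  have k := Misc.isKleinFour_closure_pair g2 s2 c.symm g1 s1 fun e => gs (e ▸ g2)
  have sq := fun x hx => (pow_two x).symm.trans (Misc.sq_eq_one_of_mem_closure_pair g2 s2 c.symm x hx)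
  have : IsMulCommutative (closure {g, s}) := k.isMulCommutative
  have n : ¬ F ≤ 𝐜[s] := fun e => s1 (eq_one_of_pow ((pow_two s).trans s2)
    (orderOf_dvd_iff_pow_eq_one.1 (F.orderOf_dvd_natCard
      (h.cen (mem_cent.2 fun u hu => mem_c1.1 (e hu))))) h.odd.coprime_two_left)
  rw [← S0058.result (closure {g, s}) F k.not_isCyclic (h.le_N _) (by
    rw [k.card_four]; exact Nat.Coprime.pow_left 2 h.odd.coprime_two_left), iSup₂_le_iff] at n
  push Not at n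
  obtain ⟨t, ⟨ht, t1⟩, n⟩ := n
  obtain ⟨x, ⟨xF, xt⟩, xs⟩ := SetLike.not_le_iff_exists.1 n
  have ts : Commute s t := Misc.isMulCommutative_iff'.1 this _ (subset_closure (by simp)) _ ht
  have xt : Commute x t := mem_c1.1 xt
  have yF : cm x s ∈ F := cm_mem xF (h.le_N ⊤ trivial)
  have yt : Commute (cm x s) t := xt.inv_left.mul_left ((ts.mul_left xt).mul_left ts.inv_left)
  refine ⟨t, ?_, t1, sq t ht, _, yF, ord_prime 3 (h.cube t1 (sq t ht) yF yt)
    fun e => xs (mem_c1.2 (cm_eq_one.1 e)), yt, ?_⟩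
  · rcases (Misc.mem_closure_pair_iff g2 s2 c.symm).1 ht with e | e | e | e
    exacts [absurd e t1, .inl e, absurd (mem_c1.2 (e ▸ xt)) xs, .inr e]
  · calc s * cm x s * s⁻¹ * cm x s = s * x⁻¹ * s * (x * (s * s)⁻¹ * x⁻¹) * s * x * s⁻¹ := by
          simp only [cm]; group
      _ = s * x⁻¹ * (s * s) * x * s⁻¹ := by
          rw [s2, inv_one, mul_one, mul_inv_cancel, mul_one, mul_assoc _ s s, s2]
      _ = 1 := by rw [s2]; group

theorem nofour (hy : orderOf y = 3) (s2 : s * s = 1) (g2 : g * g = 1) (c : s * g = g * s)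
    (s1 : s ≠ 1) (g1 : g ≠ 1) (ys : Commute y s) (yg : Commute y g) : g * s = 1 := by
  by_contra gs
  obtain ⟨t, ht, t1, t2, x, xF, x3, xt, e⟩ := h.four s2 g2 c s1 g1 gs
  obtain ⟨n, rfl⟩ := h.eq_zp t1 t2 hy (by
    rcases ht with rfl | rfl
    exacts [yg, yg.mul_right ys]) ⟨xF, mem_c1.2 xt⟩
  rw [← (ys.zpow_left n).eq, mul_inv_cancel_right, ← pow_two, ← orderOf_dvd_iff_pow_eq_one, x3] at e
  omega

theorem rk {W : Subgroup G} (sq : ∀ w ∈ W, w * w = 1) : Nat.card W ≤ 4 := by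
  by_contra n
  have cw : ∀ a ∈ W, ∀ b ∈ W, a * b = b * a := fun a ha b hb =>
    comm_of_sq (sq a ha) (sq b hb) (sq _ (mul_mem ha hb))
  have iv : ∀ a b, b ∈ W → a * b = 1 → a = b := fun a b hb e => mul_right_cancel (e.trans (sq b hb).symm)
  obtain ⟨s, hs, s1, -⟩ := loc_ex n 1 1 1 1
  obtain ⟨g, hg, g1, gs, -⟩ := loc_ex n 1 s 1 1
  obtain ⟨k, hk, k1, k2, k3, k4⟩ := loc_ex n 1 s g (g * s)
  obtain ⟨t, ht, t1, t2, y, yF, y3, yt, e⟩ :=
    h.four (sq s hs) (sq g hg) (cw s hs g hg) s1 g1 fun e => gs (iv _ _ hs e)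
  have tW : t ∈ W := by
    rcases ht with rfl | rfl
    exacts [hg, mul_mem hg hs]
  have kt : Commute k t := cw k hk t tW
  rcases loc_zp y3 (h.eq_zp t1 t2 y3 yt ⟨h.nm.conj_mem y yF k,
    mem_c1.2 ((kt.mul_left yt).mul_left kt.inv_left)⟩) with e1 | e1 | e1
  · rw [conj_eq_one_iff.1 e1, orderOf_one] at y3
    omega
  · have := iv _ _ tW (h.nofour y3 t2 (sq k hk) kt.symm t1 k1 yt (mul_inv_eq_iff_eq_mul.1 e1).symm)
    rcases ht with rfl | rfl
    exacts [k3 this, k4 this]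
  · have := iv _ _ tW (h.nofour y3 t2 (sq _ (mul_mem hk hs)) (cw _ tW _ (mul_mem hk hs)) t1
      (fun e => k2 (iv _ _ hs e)) yt (mul_inv_eq_iff_eq_mul.1 (by
        calc k * s * y * (k * s)⁻¹ = k * (s * y * s⁻¹ * y) * k⁻¹ * (k * y * k⁻¹)⁻¹ := by group
          _ = y := by rw [e, e1]; group)).symm)
    rcases ht with rfl | rfl
    · exact k4 (by rw [← this, mul_assoc, sq s hs, mul_one])
    · exact k3 (mul_right_cancel this)

theorem six (h57 : ∀ x : G, ¬ (orderOf x = 5 ∨ orderOf x = 7)) (h9 : ¬ 9 ∣ Nat.card G) :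
    Nat.card G ≤ 6 := by
  have := Fact.mk Nat.prime_three
  have := h.nm
  obtain ⟨n, hn⟩ := (isPGroup_iff.2 fun x hx => ⟨1, h.p8.pow_of fun k _ _ e => by
    obtain ⟨m, hm⟩ := h.odd.of_dvd_nat (F.orderOf_dvd_natCard hx)
    have := h57 x
    rw [e] at this hm
    interval_cases k <;> omega⟩ : IsPGroup 3 F).exists_card_eq
  have n2 : n < 2 := not_le.1 fun e => h9 ((hn ▸ pow_dvd_pow 3 e).trans (card_subgroup_dvd_card F))
  have : IsCyclic F := isCyclic_of_card_dvd_prime (p := 3) (by rw [hn]; interval_cases n <;> norm_num)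
  have k1 : Nat.card (MulAut.conjNormal : G →* MulAut F).ker ≤ Nat.card F :=
    card_le_of_le fun x hx => h.cen (mem_cent.2 fun u hu => by
      have := congrArg Subtype.val (DFunLike.congr_fun (MonoidHom.mem_ker.1 hx) ⟨u, hu⟩)
      rw [MulAut.conjNormal_apply] at this
      exact (mul_inv_eq_iff_eq_mul.1 this).symm)
  have k2 := card_le_card_group (MulAut.conjNormal : G →* MulAut F).range
  rw [IsCyclic.card_mulAut, ← index_ker] at k2
  rw [← card_mul_index (MulAut.conjNormal : G →* MulAut F).ker]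
  refine (Nat.mul_le_mul k1 k2).trans ?_
  rw [hn]
  interval_cases n <;> decide

end Bar

/-- The four-group `A = ⟨s̄, ḡ⟩` acts on `F`, `F = ⟨C_F(a) | 1 ≠ a ∈ A⟩` (`S0058`), and `s̄` does not
centralize `F`.  So for `t = g` or `g * s` some `c ∈ C_F(t̄)` does not commute with `s̄`;
`ȳ = cm c s̄ ≠ 1` is inverted by `s̄`, centralized by `t̄`, has odd order and commutes with an
involution, so has order 3 (`P8.c2`, `P8.mul_le`); lift it with `P8.lift3`. -/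
theorem P8.four (h : P8 G) (hX : IsCharP 2 X) [Group.IsSolvable X] {s g : G} (hs : s ∈ X)
    (hg : g ∈ X) (s2 : s * s ∈ 𝐑[X]) (g2 : g * g ∈ 𝐑[X]) (c : cm s g ∈ 𝐑[X]) (s1 : s ∉ 𝐑[X])
    (g1 : g ∉ 𝐑[X]) (gs : g * s ∉ 𝐑[X]) :
    ∃ y ∈ X, orderOf y = 3 ∧ s * y * s⁻¹ * y ∈ 𝐑[X] ∧ (cm y g ∈ 𝐑[X] ∨ cm y (g * s) ∈ 𝐑[X]) := by
  obtain ⟨t, ht, -, -, y, -, y3, yt, e⟩ := (h.bar hX).four (s := pr X ⟨s, hs⟩) (g := pr X ⟨g, hg⟩)
    ((map_mul ..).symm.trans (pr_eq_one.2 s2)) ((map_mul ..).symm.trans (pr_eq_one.2 g2)) (pr_comm.2 c)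
    (mt pr_eq_one.1 s1) (mt pr_eq_one.1 g1) fun e => gs (pr_eq_one.1 ((map_mul ..).trans e))
  obtain ⟨x, rfl⟩ := QuotientGroup.mk'_surjective _ y
  obtain ⟨x3, e1⟩ := (h.sub X).lift3 (pr X) y3
  rw [← e1] at yt e
  refine ⟨_, (x ^ 4).2, (orderOf_coe _).trans x3, 
    (pr_eq_one (x := ⟨s, hs⟩ * x ^ 4 * ⟨s, hs⟩⁻¹ * x ^ 4)).1 (by rwa [map_mul, map_mul, map_mul, map_inv]),
    ht.imp (fun k => ?_) fun k => ?_⟩
  · exact pr_comm.1 (k ▸ yt)
  · exact (pr_comm (x := x ^ 4) (y := ⟨g, hg⟩ * ⟨s, hs⟩)).1 (by rwa [map_mul, ← k])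

/-- A four-group of `X̄` centralizes no element `β̄` of order 3: take `y, t` from `P8.four`; more
precisely `C_F(t̄)` is a 3-group (odd, commutes with an involution) normalized by `β̄`, so
`C_F(t̄) ⊔ ⟨β̄⟩` is a 3-group centralized by `t̄`, of order at most 3 by `P8.c3le`; so `ȳ ∈ ⟨β̄⟩` is
centralized and inverted by `s̄`.  Now `B̄` centralizes `β̄`, so is elementary abelian (`P8.sq3` in
`X̄`) without four-group. -/
theorem P8.w2 (h : P8 G) (hX : IsCharP 2 X) [Group.IsSolvable X] {β : G} (hβ : β ∈ X)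
    (b3 : orderOf β = 3) {B : Subgroup G} (hB : IsPGroup 2 B) (BX : B ≤ X)
    (e : ∀ b ∈ B, cm β b ∈ 𝐑[X]) {s g : G} (hs : s ∈ B) (hg : g ∈ B) (s1 : s ∉ 𝐑[X])
    (g1 : g ∉ 𝐑[X]) : g * s ∈ 𝐑[X] := by
  have k := h.bar hX
  have y3 : orderOf (pr X ⟨β, hβ⟩) = 3 := ord_prime 3
    (by rw [← map_pow, show (⟨β, hβ⟩ : X) ^ 3 = 1 from Subtype.ext (b3 ▸ pow_orderOf_eq_one β), map_one])
    fun c => by
      rw [eq_one_of_isPGroup_of_coprime (isPGroup_pCoreOf 2 X) (x := β) (pr_eq_one.1 c)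
        (by rw [b3]; norm_num), orderOf_one] at b3
      omega
  have hQ := (isPGroup_subgroupOf hB X).map (pr X)
  have m : ∀ b (hb : b ∈ B), pr X ⟨b, BX hb⟩ ∈ (B.subgroupOf X).map (pr X) := fun b hb => ⟨_, hb, rfl⟩
  have c : ∀ b (hb : b ∈ B), Commute (pr X ⟨β, hβ⟩) (pr X ⟨b, BX hb⟩) := fun b hb => pr_comm.2 (e b hb)
  have := k.nofour y3 (k.p8.sq3 y3 hQ (m s hs) (c s hs).symm.eq)
    (k.p8.sq3 y3 hQ (m g hg) (c g hg).symm.eq)
    (k.p8.comm3 y3 hQ (m s hs) (m g hg) (c s hs).symm.eq (c g hg).symm.eq) (mt pr_eq_one.1 s1)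
    (mt pr_eq_one.1 g1) (c s hs) (c g hg)
  rwa [← map_mul, pr_eq_one] at this

/-- If `W̄` has order at least 8, take `y`, `t` from `P8.four`; `C_F(t̄)` is a nontrivial 3-group, of
order 3 by `P8.c3le`, normalized by `W̄`; a subgroup of index at most 2 of `W̄` centralizes it, which
contradicts `P8.w2`. -/
theorem P8.rk2 (h : P8 G) (hX : IsCharP 2 X) [Group.IsSolvable X] {W : Subgroup G} (hW : W ≤ X)
    (sq : ∀ w ∈ W, w * w = 1) : Nat.card W ≤ 4 * Nat.card ↥(W ⊓ 𝐑[X]) := by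
  let f := (pr X).comp (inclusion hW)
  have k : f.ker = (W ⊓ 𝐑[X]).subgroupOf W := by
    ext x
    exact pr_eq_one.trans ⟨fun k => ⟨x.2, k⟩, fun k => k.2⟩
  rw [← card_mul_index f.ker, index_ker, k, Nat.card_congr (subgroupOfEquivOfLe inf_le_left).toEquiv,
    mul_comm]
  refine Nat.mul_le_mul_right _ ((h.bar hX).rk ?_)
  rintro _ ⟨x, rfl⟩
  rw [← map_mul, show x * x = 1 from Subtype.ext (sq x x.2), map_one]

/-- `F` is a 3-group (no elements of order 5, 7) of order at most 3, `C(F) ≤ F`, and `X̄ ⧸ C(F)`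
embeds in `Aut F` of order at most 2. -/
theorem P8.six (h : P8 G) (hX : IsCharP 2 X) [Group.IsSolvable X]
    (h57 : ∀ x ∈ X, ¬ (orderOf x = 5 ∨ orderOf x = 7)) (h9 : ¬ 9 ∣ Nat.card X) :
    Nat.card X ≤ 6 * Nat.card 𝐑[X] := by
  rw [card_eq_card_quotient_mul_card_subgroup (pCore 2 X), pCoreOf,
    card_map_of_injective X.subtype_injective]
  refine Nat.mul_le_mul_right _ ((h.bar hX).six (fun y hy => ?_)
    fun e => h9 (e.trans (card_quotient_dvd_card _)))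
  obtain ⟨x, rfl⟩ := QuotientGroup.mk'_surjective _ y
  refine h57 x x.2 ?_
  rwa [orderOf_coe, (h.sub X).lift57 (pr X) hy rfl]

theorem q4_aux {V : Type*} [CommGroup V] (sq : ∀ u : V, u * u = 1) {Y S T : MulAut V}
    (Y3 : ∀ u, Y (Y (Y u)) = u) (SY : ∀ u, S (Y u) = Y (Y (S u))) (TY : ∀ u, T (Y u) = Y (T u))
    (h1 : ∀ u, Y u = u → T u = u) (h2 : ∀ u, T (u * S u) = u * S u) (u : V) : T u = u := by
  have e : ∀ w, Y w * Y (Y w) = Y w * S (Y w) * Y (Y (w * S w)) := fun w => by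
    simp only [map_mul, SY, mul_comm, mul_left_comm, sq, one_mul]
  have k : ∀ w, T (Y w * Y (Y w)) = Y w * Y (Y w) := fun w => by
    rw [e, map_mul, h2, TY, TY, h2]
  have := h1 (u * (Y u * Y (Y u))) (by simp only [map_mul, Y3, mul_comm, mul_left_comm])
  rw [map_mul, k] at this
  exact mul_right_cancel this

/-- `R` acts trivially on the elementary abelian group `U`; write the action additively,
`σ = 1 + s`.  By `P8.k12`, `t` centralizes `C_U(y)`, and `t` commutes with `y` on `U`.  For `u ∈ U`,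
`u = N u + (u + N u)` with `N = 1 + y + y²`, `N u ∈ C_U(y)` and `w = u + N u` satisfies `N w = 0`.
As `s y = y² s` on `U`: `σ y w + y² σ w = (y + y²) w = w`.  Both summands are fixed by `t`. -/
theorem P8.q4 (h : P8 G) {R U : Subgroup G} (hR : IsPGroup 2 R) (UR : U ≤ R) (cU : R ≤ 𝐂[U])
    (sq : ∀ u ∈ U, u * u = 1) {y s t : G} (hy : orderOf y = 3) (yR : y ∈ 𝐍[R]) (tR : t ∈ 𝐍[R])
    (yU : y ∈ 𝐍[U]) (sU : s ∈ 𝐍[U]) (tU : t ∈ 𝐍[U]) (t2 : t * t ∈ R) (e1 : s * y * s⁻¹ * y ∈ R)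
    (e2 : cm y t ∈ R) (e3 : ∀ u ∈ U, cm u s * t = t * cm u s) : t ∈ 𝐂[U] := by
  obtain ⟨r, hr, -, -, k⟩ := h.k12 hR hy yR tR ⟨1, by rwa [pow_one, pow_two]⟩ e2
  let _ : CommGroup U := { (inferInstance : Group U) with
    mul_comm := fun a b => Subtype.ext (cU (UR b.2) a a.2) }
  have fx : ∀ r ∈ R, ∀ u ∈ U, r * u * r⁻¹ = u := fun r hr u hu =>
    mul_inv_eq_iff_eq_mul.2 (cU hr u hu).symm
  have y3 : y * y * y = 1 := by rw [← pow_three', ← hy, pow_orderOf_eq_one]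
  refine mem_cent.2 fun u hu => (mul_inv_eq_iff_eq_mul.1 (congrArg Subtype.val
    (q4_aux (fun u => Subtype.ext (sq u u.2)) (Y := U.normalizerMonoidHom ⟨y, yU⟩)
      (S := U.normalizerMonoidHom ⟨s, sU⟩) (T := U.normalizerMonoidHom ⟨t, tU⟩)
      (fun u => Subtype.ext ?_) (fun u => Subtype.ext ?_) (fun u => Subtype.ext ?_)
      (fun u e => Subtype.ext ?_) (fun u => Subtype.ext ?_) ⟨u, hu⟩) : t * u * t⁻¹ = u)).symm
  · calc y * (y * (y * u * y⁻¹) * y⁻¹) * y⁻¹ = y * y * y * u * (y * y * y)⁻¹ := by group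
      _ = u := by rw [y3]; group
  · calc s * (y * u * y⁻¹) * s⁻¹ = s * y * s⁻¹ * y * ((y * y * y)⁻¹ *
          (y * (y * (s * u * s⁻¹) * y⁻¹) * y⁻¹) * (y * y * y)) * (s * y * s⁻¹ * y)⁻¹ := by group
      _ = y * (y * (s * u * s⁻¹) * y⁻¹) * y⁻¹ := by
        rw [y3, inv_one, one_mul, mul_one]
        exact fx _ e1 _ (conj_mem_of_mem_normalizer yU (conj_mem_of_mem_normalizer yU
          (conj_mem_of_mem_normalizer sU u.2)))
  · calc t * (y * u * y⁻¹) * t⁻¹ = y * (cm y t * (t * u * t⁻¹) * (cm y t)⁻¹) * y⁻¹ := by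
          simp only [cm]; group
      _ = y * (t * u * t⁻¹) * y⁻¹ := by rw [fx _ e2 _ (conj_mem_of_mem_normalizer tU u.2)]
  · have e' : y * u * y⁻¹ = u := congrArg Subtype.val e
    calc t * u * t⁻¹ = r * (t * u * t⁻¹) * r⁻¹ := (fx r hr _ (conj_mem_of_mem_normalizer tU u.2)).symm
      _ = r * t * u * (r * t)⁻¹ := by group
      _ = u := by rw [← k u (UR u.2) (mul_inv_eq_iff_eq_mul.1 e').symm, mul_inv_cancel_right]
  · have := e3 u u.2
    rw [cm, inv_eq_of_mul_eq_one_left (sq u u.2)] at this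
    exact mul_inv_eq_iff_eq_mul.2 this.symm

/-- Let `q ∈ Q` commute with `y`, `cm u q = z ^ ε`.  Put `u₁ = y u y⁻¹`, `u₂ = y² u y⁻²`,
`c = u u₁ u₂`.  The images of `u, u₁, u₂` are central in `Q ⧸ V`, so `y` fixes `c` modulo `V` and
`c = c₀ v` with `c₀ ∈ Q ⊓ 𝐜[y]`, `v ∈ V` (`S0022`).  `c₀` commutes with `q` (`P8.comm3`), so
`1 = cm c q = (z * y z y⁻¹ * y² z y⁻²) ^ ε` (commutators are central in `Q`); so `cm u q = 1`. -/
theorem P8.rky (h : P8 G) {Q V : Subgroup G} (hQ : IsPGroup 2 Q) (VQ : V ≤ Q) (cV : Q ≤ 𝐂[V])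
    (sq : ∀ v ∈ V, v * v = 1) {y z u : G} (hy : orderOf y = 3) (yQ : y ∈ 𝐍[Q]) (yV : y ∈ 𝐍[V])
    (hz : z ∈ V) (hu : u ∈ Q) (e : ∀ q ∈ Q, cm u q ∈ zpowers z)
    (hn : z * (y * z * y⁻¹) * (y * (y * z * y⁻¹) * y⁻¹) ≠ 1) {q : G} (hq : q ∈ Q)
    (c : q * y = y * q) : u * q = q * u := by
  by_contra n
  have y3 : y * y * y = 1 := by rw [← pow_three', ← hy, pow_orderOf_eq_one]
  have nV : Q ≤ 𝐍[V] := cV.trans (centralizer_le_normalizer' V)
  have e0 : q * u * q⁻¹ = u * z := inv_mul_eq_iff_eq_mul.1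
    (((Misc.mem_zpowers_two (sq z hz)).1 (e q hq)).resolve_left fun k => n (cm_eq_one.1 k))
  have st : ∀ a b, q * a * q⁻¹ = a * b → q * (y * a * y⁻¹) * q⁻¹ = y * a * y⁻¹ * (y * b * y⁻¹) :=
    fun a b k => by
      calc q * (y * a * y⁻¹) * q⁻¹ = q * y * a * (q * y)⁻¹ := by group
        _ = y * (q * a * q⁻¹) * y⁻¹ := by rw [c]; group
        _ = _ := by rw [k]; group
  have e1 := st _ _ e0
  have e2 := st _ _ e1
  have u1 := conj_mem_of_mem_normalizer yQ hu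
  have u2 := conj_mem_of_mem_normalizer yQ u1
  have z1 := conj_mem_of_mem_normalizer yV hz
  have hc := mul_mem hu (mul_mem u1 u2)
  have f : y * (u * (y * u * y⁻¹ * (y * (y * u * y⁻¹) * y⁻¹))) * y⁻¹ *
      (u * (y * u * y⁻¹ * (y * (y * u * y⁻¹) * y⁻¹)))⁻¹ ∈ V := by
    have k := conj_mem_of_mem_normalizer (nV hu) (zpowers_le.2 hz (e _ (mul_mem u1 u2)))
    have k2 : y * y * y * u * (y * y * y)⁻¹ = u := by rw [y3]; group
    convert k using 1
    calc _ = y * u * y⁻¹ * (y * (y * u * y⁻¹) * y⁻¹) * (y * y * y * u * (y * y * y)⁻¹) *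
          (u * (y * u * y⁻¹ * (y * (y * u * y⁻¹) * y⁻¹)))⁻¹ := by group
      _ = _ := by rw [k2]; simp only [cm]; group
  generalize y * u * y⁻¹ = u₁ at e1 e2 u1 u2 hc f
  generalize y * u₁ * y⁻¹ = u₂ at e2 u2 hc f
  generalize y * z * y⁻¹ = z₁ at e1 e2 z1 hn
  generalize y * z₁ * y⁻¹ = z₂ at e2 hn
  have hY : IsPGroup 3 (zpowers y) := isPGroup_zpowers ⟨1, by rw [pow_one, ← hy, pow_orderOf_eq_one]⟩
  obtain ⟨d, ⟨dQ, dy⟩, hd⟩ := S0022.result (zpowers y) Q (zpowers_le.2 yQ) (loc_cop hY hQ)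
    (.inr (loc_solv hQ)) V VQ nV (zpowers_le.2 yV) _ hc fun a ha => by
      rcases loc_zp hy ha with rfl | rfl | rfl
      · rw [one_mul, inv_one, mul_one, mul_inv_cancel]
        exact one_mem V
      · exact f
      · simpa only [mul_inv_rev, inv_inv, mul_assoc, mul_inv_cancel, mul_one, inv_mul_cancel] using
          inv_conj_mem_of_mem_normalizer yV (inv_mem f)
  have k1 : Commute q d := h.comm3 hy hQ hq dQ c (dy y (mem_zpowers y)).symm
  have k2 : Commute q ((u * (u₁ * u₂))⁻¹ * d) := (cV hq _ hd).symm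
  have k3 := (k1.mul_right k2.inv_right).eq
  rw [mul_inv_rev, inv_inv, mul_inv_cancel_left] at k3
  refine hn (mul_left_cancel (a := u * (u₁ * u₂)) ?_)
  calc u * (u₁ * u₂) * (z * z₁ * z₂) = u * (u₁ * u₂ * z) * z₁ * z₂ := by group
    _ = u * z * u₁ * (u₂ * z₁) * z₂ := by rw [← cV (mul_mem u1 u2) z hz]; group
    _ = u * z * (u₁ * z₁) * (u₂ * z₂) := by rw [← cV u2 z₁ z1]; group
    _ = q * (u * (u₁ * u₂)) * q⁻¹ := by rw [← e0, ← e1, ← e2]; group
    _ = _ := by rw [k3, mul_inv_cancel_right, mul_one]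

end Cfsg.Agent.Eo8
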