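import Mathlib
import Cfsg.Agent.Eo8.La
import Cfsg.Agent.Eo8.Loc
import Cfsg.Agent.S1232
import Cfsg.Agent.Grp.ConjCount

/-!
# The structure of `Q.L₃(2)`
-/

set_option autoImplicit false
set_option linter.unusedSectionVars false

namespace Cfsg.Agent.Eo8

open Subgroup Cfsg PLocal.Amb
open Cfsg.Agent.PLocal.CP (IsCharP)
open scoped MatrixGroups

universe u

variable {G : Type*} [Group G] [Finite G]

variable {M Q V : Subgroup G}

theorem lb_mod3 {U : Subgroup G} {t : G} (ht : orderOf t = 3) (hn : t ∈ 𝐍[U]) :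
    Nat.card U % 3 = Nat.card ↥(U ⊓ 𝐜[t]) % 3 := by
  have := Fact.mk Nat.prime_three
  have h := Grp.ConjCount.card_modEq (P := zpowers t) (p := 3)
    (isPGroup_zpowers ⟨1, by rw [pow_one, ← ht, pow_orderOf_eq_one]⟩)
    (U : Set G) fun u hu x hx => (mem_normalizer_iff.1 (zpowers_le.2 hn hu) x).1 hx
  rwa [zpowers_eq_closure, centralizer_closure] at h

theorem lb_cent_two {A U : Subgroup G} (hU : Nat.card U ≤ 2) (hn : A ≤ 𝐍[U]) : A ≤ 𝐂[U] := by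
  have := Fintype.ofFinite U
  refine fun a ha u hu => by_contra fun e => hU.not_gt ?_
  have u1 : u ≠ 1 := fun k => e (by rw [k, one_mul, mul_one])
  rw [Nat.card_eq_fintype_card]
  exact Fintype.two_lt_card_iff.2 ⟨1, ⟨u, hu⟩, ⟨_, conj_mem_of_mem_normalizer (hn ha) hu⟩,
    fun k => u1 (congrArg Subtype.val k).symm,
    fun k => u1 (conj_eq_one_iff.1 (congrArg Subtype.val k).symm),
    fun k => e (eq_mul_inv_iff_mul_eq.1 (congrArg Subtype.val k))⟩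

theorem Ext.chief (h : Ext L32 M Q) {F F₀ K : Subgroup G} (FQ : F ≤ Q) (F1 : F ≠ ⊥) (nF : M ≤ 𝐍[F])
    (hm : ∀ W ≤ F, M ≤ 𝐍[W] → W = ⊥ ∨ W = F) (h0 : F₀ < F) {y₁ y₂ : G} (o₁ : orderOf y₁ = 3)
    (o₂ : orderOf y₂ = 3) (m₁ : y₁ ∈ M) (m₂ : y₂ ∈ M) (c₁ : F ⊓ 𝐜[y₁] ≤ F₀) (c₂ : F ⊓ 𝐜[y₂] ≤ F₀)
    (k₁ : y₁ ∈ K) (nK : K ≤ 𝐍[F₀]) (gen : ∀ L : Subgroup G, K ≤ L → y₂ ∈ L → M ≤ L) : False := by
  have hN := h.nsl (fun e => F1 (le_bot_iff.1 (e ▸ FQ))) n57_L32 rk_L32 ns_L32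
  have F2 := h.two.to_le FQ
  have hV : ZV M Q F := by
    obtain ⟨V, hV, -⟩ := exists_min F2 F1 nF
    have e := (hm V hV.VQ hV.nV).resolve_left hV.V1
    have e' := (hm (F ⊓ 𝐂[Q]) inf_le_left (le_normalizer_inf nF (le_normalizer_centralizer hN.nQ))).resolve_left
      (inf_centralizer_ne_bot h.two F2 (h.le.trans nF) F1)
    exact ⟨FQ, F1, nF, le_centralizer_iff.1 (e'.ge.trans inf_le_right), e ▸ hV.sq⟩
  have h8 := h.card8 hV hm
  have k : ∀ B ≤ F, B ≠ F → Nat.card B % 3 = 2 → Nat.card B = 2 := fun B h1 h2 h3 => by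
    have h4 := h8 ▸ card_dvd_of_le h1
    have h5 : Nat.card B ≠ 8 := fun e => h2 (eq_of_le_of_card_ge h1 (by omega))
    have := Nat.le_of_dvd (by norm_num) h4
    interval_cases Nat.card B <;> omega
  have c2 : ∀ y ∈ M, orderOf y = 3 → Nat.card ↥(F ⊓ 𝐜[y]) = 2 := fun y hy o =>
    k _ inf_le_left (fun e => by
      have := eq_one_of_isPGroup_of_coprime h.two
        (hN.cent hV ⟨hy, fun f hf => mem_c1.1 (e.ge hf).2⟩) (by rw [o]; norm_num)
      rw [this, orderOf_one] at o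
      omega) (by rw [← lb_mod3 o (nF hy), h8])
  have h2 : Nat.card F₀ = 2 := k _ h0.le h0.ne (by
    rw [lb_mod3 o₁ (nK k₁), le_antisymm (inf_le_inf_right _ h0.le) (le_inf c₁ inf_le_right), c2 _ m₁ o₁])
  have h3 := eq_of_le_of_card_ge c₂ (by rw [h2, c2 _ m₂ o₂])
  obtain ⟨f, hf, f1⟩ : ∃ f ∈ F₀, f ≠ 1 := by
    by_contra! e
    rw [(eq_bot_iff_forall F₀).2 e, card_bot] at h2
    omega
  exact f1 (hN.eq_one (FQ (h0.le hf)) (gen _ (fun a ha => mem_c1.2 (lb_cent_two h2.le nK ha f hf).symm)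
    (mem_c1.2 (mem_c1.1 (h3.ge hf).2).symm)))

/-- the preimage of a subgroup of `L₃(2)` -/
def pre (π : M →* L32) (K : Subgroup L32) : Subgroup G := (K.comap π).map M.subtype

theorem mem_pre {π : M →* L32} {K : Subgroup L32} {m : M} : (m : G) ∈ pre π K ↔ π m ∈ K :=
  mem_map_subtype

theorem pre_le (π : M →* L32) (K : Subgroup L32) : pre π K ≤ M := map_subtype_le _

theorem pre_mono (π : M →* L32) {K L : Subgroup L32} (h : K ≤ L) : pre π K ≤ pre π L :=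
  map_mono (comap_mono h)

theorem pre_norm (π : M →* L32) {K L : Subgroup L32} (h : K ≤ 𝐍[L]) : pre π K ≤ 𝐍[pre π L] :=
  (map_mono ((comap_mono h).trans (le_normalizer_comap π))).trans (le_normalizer_map _)

/-- the natural module -/
structure Nt (M Q V : Subgroup G) (π : M →* L32) (e : Multiplicative (Fin 3 → ZMod 2) →* G) : Prop where
  ex : Ext L32 M Q
  sur : Function.Surjective π
  ker : ∀ m, π m = 1 ↔ (m : G) ∈ Q
  inj : Function.Injective e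
  rng : e.range = V
  act : ∀ (m : M) (v : Fin 3 → ZMod 2), m * e (Multiplicative.ofAdd v) * (m : G)⁻¹ =
    e (Multiplicative.ofAdd ((π m).1.mulVec v))

theorem Ext.nt3 (h : Ext L32 M Q) (hV : ZV M Q V) (h8 : Nat.card V = 8) : ∃ π e, Nt M Q V π e :=
  let ⟨π, e, h1, h2, h3, h4, h5⟩ := h.nat hV h8
  ⟨π, e, h, h1, h2, h3, h4, h5⟩

/-- the stabilizer of a vector -/
abbrev stb (v : Fin 3 → ZMod 2) : Subgroup L32 := MulAction.stabilizer L32 v

theorem mem_stb {v : Fin 3 → ZMod 2} {g : L32} : g ∈ stb v ↔ g.1.mulVec v = v := Iff.rfl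

theorem card_stb {v : Fin 3 → ZMod 2} (hv : v ≠ 0) : Nat.card (stb v) = 24 :=
  (Nat.card_eq_fintype_card (α := {g : L32 // g.1.mulVec v = v})).trans
    ((by decide +kernel : ∀ v : Fin 3 → ZMod 2, v ≠ 0 →
      Fintype.card {g : L32 // g.1.mulVec v = v} = 24) v hv)

theorem lb_y : ∀ v : Fin 3 → ZMod 2, v ≠ 0 → (∃ g : L32, g.1.mulVec v = v ∧ g ^ 3 = 1 ∧ g ≠ 1) ∧
    ∃ g : L32, g.1.mulVec v ≠ v ∧ v + g.1.mulVec v + g.1.mulVec (g.1.mulVec v) ≠ 0 ∧ g ^ 3 = 1 := by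
  decide +kernel

namespace Nt

variable {π : M →* L32} {e : Multiplicative (Fin 3 → ZMod 2) →* G} (h : Nt M Q V π e)
include h

theorem mem_c {m : M} {v : Fin 3 → ZMod 2} :
    (m : G) ∈ 𝐜[e (Multiplicative.ofAdd v)] ↔ (π m).1.mulVec v = v := by
  rw [mem_c1, ← mul_inv_eq_iff_eq_mul, h.act, h.inj.eq_iff, Multiplicative.ofAdd.apply_eq_iff_eq]

theorem stab (v : Fin 3 → ZMod 2) : M ⊓ 𝐜[e (Multiplicative.ofAdd v)] = pre π (stb v) :=
  le_antisymm (fun m hm => (mem_pre (m := ⟨m, hm.1⟩)).2 ((h.mem_c (m := ⟨m, hm.1⟩)).1 hm.2))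
    fun m hm => ⟨pre_le π _ hm, (h.mem_c (m := ⟨m, pre_le π _ hm⟩)).2
      ((mem_pre (m := ⟨m, pre_le π _ hm⟩)).1 hm)⟩

theorem idx (K : Subgroup L32) : (pre π K).relIndex M * Nat.card K = 168 := by
  rw [relIndex, pre, map_subtype_subgroupOf, index_comap_of_surjective _ h.sur, index_mul_card, card_L32]

theorem card (K : Subgroup L32) : Nat.card (pre π K) = Nat.card Q * Nat.card K := by
  have h1 := (K.comap π).card_mul_index
  rw [index_comap_of_surjective _ h.sur, h.ex.card, ← K.card_mul_index, ← mul_assoc] at h1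
  rw [pre, Subgroup.card_map_of_injective M.subtype_injective]
  exact Nat.eq_of_mul_eq_mul_right (Nat.pos_of_ne_zero index_ne_zero_of_finite) h1

theorem Q_le (K : Subgroup L32) : Q ≤ pre π K := fun q hq =>
  (mem_pre (m := ⟨q, h.ex.le hq⟩)).2 (((h.ker ⟨q, h.ex.le hq⟩).2 hq).symm ▸ one_mem K)

theorem two {K : Subgroup L32} {n : ℕ} (hK : Nat.card K = 2 ^ n) : IsPGroup 2 (pre π K) := by
  obtain ⟨k, hk⟩ := IsPGroup.iff_card.1 h.ex.two
  exact IsPGroup.of_card (n := k + n) (by rw [h.card, hk, hK, pow_add])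

theorem solv {K : Subgroup L32} (hK : Nat.card K = 24) : Group.IsSolvable (pre π K) := by
  obtain ⟨k, hk⟩ := IsPGroup.iff_card.1 h.ex.two
  refine solv23 fun s hs hd => ?_
  rw [h.card, hk, hK, show 24 = 2 ^ 3 * 3 by norm_num, ← mul_assoc, ← pow_add, hs.dvd_mul] at hd
  exact hd.imp (fun e => (Nat.prime_dvd_prime_iff_eq hs Nat.prime_two).1 (hs.dvd_of_dvd_pow e))
    (Nat.prime_dvd_prime_iff_eq hs Nat.prime_three).1

theorem max {K : Subgroup L32} (hK : Nat.card K = 24) {L : Subgroup G} (h1 : pre π K ≤ L) {y : M}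
    (hy : π y ∉ K) (hL : (y : G) ∈ L) : M ≤ L := by
  have h2 := h.idx K
  rw [hK, ← relIndex_mul_relIndex _ (L ⊓ M) _ (le_inf h1 (pre_le π K)) inf_le_right] at h2
  have h3 : (pre π K).relIndex (L ⊓ M) * (L ⊓ M).relIndex M = 7 := by omega
  rcases (Nat.prime_mul_iff.1 (h3 ▸ (by norm_num : Nat.Prime 7))) with e | e
  · exact (relIndex_eq_one.1 e.2).trans inf_le_left
  · exact absurd (mem_pre.1 (relIndex_eq_one.1 e.2 ⟨hL, y.2⟩)) hy

theorem lift3 {g : L32} (g3 : g ^ 3 = 1) (g1 : g ≠ 1) : ∃ y : M, orderOf (y : G) = 3 ∧ π y = g := by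
  obtain ⟨m, rfl⟩ := h.sur g
  obtain ⟨h1, h2⟩ := (h.ex.p8.sub M).lift3 π (ord_prime 3 g3 g1)
  exact ⟨_, (orderOf_coe _).trans h1, h2⟩

end Nt

/-- `M₁ = M ⊓ 𝐜[z]` has index 7.  `C = Q ⊓ 𝐂[U]` is normalized by `M₁`.  Let `𝒴` be the set of
`y ∈ M` of order 3 with `z * y z y⁻¹ * y² z y⁻² ≠ 1`; by `P8.rky`, `Q ⊓ 𝐜[y] ≤ C` for `y ∈ 𝒴`.  With
`Ext.nat` there are `y₁ ∈ 𝒴 ⊓ M₁` and `y₂ ∈ 𝒴`, `y₂ ∉ M₁` (`decide` in `L32`, `P8.lift3`).  Suppose
`C < Q`.  Let `N ≤ Q` be minimal among the subgroups normalized by `M` and not contained in `C`,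
`N₀ < N` maximal among the proper subgroups normalized by `M`; `N₀ ≤ C`.  In `M ⧸ N₀`
(`Ext.quot`) `F = N ⧸ N₀` is a minimal normal 2-subgroup (`exists_min`), of order 8
(`Ext.card8`).  For `y` of order 3, `card C_F(y) ≡ 8 mod 3` and `y` does not centralize `F`
(`NSl.cent`), so `card C_F(y) = 2`; for `y ∈ 𝒴`, `C_F(y) ≤ F₀ = (C ⊓ N) ⧸ N₀ < F` (`S0022`).  `F₀` is
normalized by `y₁`, `card F₀ ≡ card C_{F₀}(y₁) = 2 mod 3`, so `F₀ = ⟨f⟩` has order 2, is centralized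
by `M₁` and `y₂`, so by `M` (prime index), contradicting `NSl.eq_one`. -/
theorem Ext.rk7 (h : Ext L32 M Q) (hV : ZV M Q V) (h8 : Nat.card V = 8) {z : G} (hz : z ∈ V)
    (z1 : z ≠ 1) {U : Subgroup G} (UQ : U ≤ Q) (nU : M ⊓ 𝐜[z] ≤ 𝐍[U])
    (e : ∀ u ∈ U, ∀ q ∈ Q, cm u q ∈ zpowers z) : U ≤ 𝐂[Q] := by
  obtain ⟨π, ε, n⟩ := h.nt3 hV h8
  obtain ⟨v, rfl⟩ : z ∈ ε.range := n.rng ▸ hz
  obtain ⟨v, rfl⟩ := Multiplicative.ofAdd.surjective v
  have hv : v ≠ 0 := by rintro rfl; exact z1 (map_one ε)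
  obtain ⟨⟨g₁, a1, a2, a3⟩, g₂, b1, b2, b3⟩ := lb_y v hv
  obtain ⟨y₁, o₁, rfl⟩ := n.lift3 a2 a3
  have b4 : g₂ ≠ 1 := by rintro rfl; exact b1 (Matrix.one_mulVec v)
  obtain ⟨y₂, o₂, rfl⟩ := n.lift3 b3 b4
  suffices ∀ N ≤ Q, M ≤ 𝐍[N] → N ≤ 𝐂[U] from le_centralizer_iff.1 (this Q le_rfl h.nQ)
  intro N
  induction N using WellFoundedLT.induction with | ind N ih => ?_
  intro NQ nN
  by_contra hn
  obtain ⟨N₀, ⟨lt, n0⟩, mx⟩ := exists_maximal_of_wellFoundedGT (fun W => W < N ∧ M ≤ 𝐍[W])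
    ⟨⊥, bot_lt_iff_ne_bot.2 (by rintro rfl; exact hn bot_le), by rw [normalizer_eq_top]; exact le_top⟩
  have c0 := ih N₀ lt (lt.le.trans NQ) n0
  have := normal_subgroupOf' n0
  set φ := QuotientGroup.mk' (N₀.subgroupOf M) with hφ
  have sφ : Function.Surjective φ := QuotientGroup.mk'_surjective _
  have k1 : ∀ m : M, φ m = 1 ↔ (m : G) ∈ N₀ := fun m => QuotientGroup.eq_one_iff m
  have key : ∀ A : Subgroup G, N₀ ≤ A → ∀ m : M, φ m ∈ (A.subgroupOf M).map φ ↔ (m : G) ∈ A :=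
    fun A hA m => ⟨fun ⟨a, ha, e⟩ => by
      have : a * (a⁻¹ * m) ∈ A.subgroupOf M := mul_mem ha (hA (QuotientGroup.eq (a := a) (b := m).1 e))
      rwa [mul_inv_cancel_left] at this, fun hm => mem_map_of_mem φ hm⟩
  have ord : ∀ y : M, orderOf (y : G) = 3 → π y ≠ 1 → orderOf (φ y) = 3 := fun y o y1 =>
    ord_prime 3 (by rw [← map_pow, ← o, orderOf_coe, pow_orderOf_eq_one, map_one])
      fun e => y1 ((n.ker y).2 (NQ (lt.le ((k1 y).1 e))))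
  have cen : ∀ y : M, orderOf (y : G) = 3 →
      v + (π y).1.mulVec v + (π y).1.mulVec ((π y).1.mulVec v) ≠ 0 →
      (N.subgroupOf M).map φ ⊓ 𝐜[φ y] ≤ ((N ⊓ 𝐂[U]).subgroupOf M).map φ := by
    rintro y o hy _ ⟨⟨x, hx, rfl⟩, hc⟩
    obtain ⟨c, ⟨c1, c2⟩, c3⟩ := S0022.result (zpowers (y : G)) N (zpowers_le.2 (nN y.2))
      (loc_cop (isPGroup_zpowers ⟨1, by rw [pow_one, ← o, pow_orderOf_eq_one]⟩) (h.two.to_le NQ))
      (Or.inr (loc_solv (h.two.to_le NQ))) N₀ lt.le ((NQ.trans h.le).trans n0) (zpowers_le.2 (n0 y.2))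
      x hx (by
        rintro _ ⟨k, rfl⟩
        refine (k1 (y ^ k * x * (y ^ k)⁻¹ * x⁻¹)).1 ?_
        have : Commute (φ y) (φ x) := (mem_c1.1 hc).symm
        rw [map_mul, map_mul, map_mul, map_inv, map_inv, map_zpow, (this.zpow_left k).eq]
        group)
    have c4 : c ∈ 𝐂[U] := fun u hu => h.p8.rky h.two hV.VQ hV.cV hV.sq o (h.nQ y.2) (hV.nV y.2) hz
      (UQ hu) (e u hu) (by
        rw [n.act, n.act, ← map_mul, ← map_mul, ne_eq, map_eq_one_iff _ n.inj]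
        exact hy) (NQ c1) (c2 _ (mem_zpowers _)).symm
    refine mem_map_of_mem φ ⟨hx, ?_⟩
    simpa using mul_mem c4 (inv_mem (c0 c3))
  refine (h.quot (lt.le.trans NQ)).chief (F := (N.subgroupOf M).map φ)
    (F₀ := ((N ⊓ 𝐂[U]).subgroupOf M).map φ)
    (K := ((M ⊓ 𝐜[ε (Multiplicative.ofAdd v)]).subgroupOf M).map φ) (y₁ := φ y₁) (y₂ := φ y₂)
    (map_mono (comap_mono NQ)) (fun e => lt.not_ge fun x hx => ?_) ?_ (fun W h1 h2 => ?_)
    (lt_of_le_of_ne (map_mono (comap_mono inf_le_left)) fun e => hn fun x hx => ?_)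
    (ord _ o₁ a3) (ord _ o₂ b4) trivial trivial (cen _ o₁ ?_) (cen _ o₂ b2)
    (mem_map_of_mem φ ⟨y₁.2, n.mem_c.2 a1⟩) ?_ fun L h1 h2 x _ => ?_
  · exact (k1 ⟨x, h.le (NQ hx)⟩).1 (mem_bot.1 (e ▸ mem_map_of_mem φ hx))
  · have := (normal_subgroupOf' nN).map φ sφ
    rw [normalizer_eq_top]
  · have := normalizer_eq_top_iff.1 (top_le_iff.1 h2)
    have h3 : (W.comap φ).map M.subtype ≤ N := by
      rintro _ ⟨m, hm, rfl⟩
      exact (key N lt.le m).1 (h1 hm)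
    rcases h3.eq_or_lt with e | e
    · refine Or.inr (le_antisymm h1 ?_)
      rintro _ ⟨m, hm, rfl⟩
      exact mem_map_subtype.1 (e.ge hm)
    · refine Or.inl ((eq_bot_iff_forall W).2 fun w hw => ?_)
      obtain ⟨m, rfl⟩ := sφ w
      refine (k1 m).2 (mx ⟨e, le_normalizer_map_subtype _⟩ (fun x hx => ?_) (mem_map_subtype.2 hw))
      exact (mem_map_subtype (x := ⟨x, h.le (NQ (lt.le hx))⟩)).2
        (mem_comap.2 (((k1 ⟨x, h.le (NQ (lt.le hx))⟩).2 hx).symm ▸ one_mem W))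
  · exact ((key _ (le_inf lt.le c0) ⟨x, h.le (NQ hx)⟩).1 (e.ge (mem_map_of_mem φ hx))).2
  · rw [a1, a1, CharTwo.add_self_eq_zero, zero_add]
    exact hv
  · exact (map_mono ((comap_mono (le_normalizer_inf (inf_le_left.trans nN)
      (le_normalizer_centralizer nU))).trans (le_normalizer_comap _))).trans (le_normalizer_map _)
  · obtain ⟨m, rfl⟩ := sφ x
    refine mem_map_subtype.1 (n.max (card_stb hv) (L := (L.comap φ).map M.subtype) (fun a ha => ?_) b1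
      (mem_map_subtype.2 h2) m.2)
    rw [← n.stab] at ha
    exact (mem_map_subtype (x := ⟨a, ha.1⟩)).2 (h1 (mem_map_of_mem φ ha))

/-- the matrices fixing a coordinate -/
def Lc (i : Fin 3) : Subgroup L32 where
  carrier := {g | Matrix.vecMul (Pi.single i 1) g.1 = Pi.single i 1}
  one_mem' := Matrix.vecMul_one _
  mul_mem' {a b} ha hb := by
    change Matrix.vecMul _ (a.1 * b.1) = _
    rw [← Matrix.vecMul_vecMul, ha, hb]
  inv_mem' {a} ha := by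
    change Matrix.vecMul _ (a⁻¹).1 = _
    rw [← ha, Matrix.vecMul_vecMul, ← Matrix.SpecialLinearGroup.coe_mul, mul_inv_cancel,
      Matrix.SpecialLinearGroup.coe_one, Matrix.vecMul_one, ha]

instance (i : Fin 3) : DecidablePred (· ∈ Lc i) := fun g =>
  inferInstanceAs (Decidable (Matrix.vecMul (Pi.single i 1) g.1 = Pi.single i 1))

instance (v : Fin 3 → ZMod 2) : DecidablePred (· ∈ stb v) := fun g =>
  inferInstanceAs (Decidable (g.1.mulVec v = v))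

/-- the first basis vector -/
def lbv : Fin 3 → ZMod 2 := ![1, 0, 0]
/-- an element of order three fixing it -/
def lbg : L32 := ⟨!![1, 0, 0; 0, 0, 1; 0, 1, 1], by decide +kernel⟩
/-- a transvection -/
def lbr0 : L32 := ⟨!![1, 1, 0; 0, 1, 0; 0, 0, 1], by decide +kernel⟩
/-- a transvection -/
def lbr1 : L32 := ⟨!![1, 0, 1; 0, 1, 0; 0, 0, 1], by decide +kernel⟩
/-- a transvection -/
def lbr2 : L32 := ⟨!![1, 0, 0; 1, 1, 0; 0, 0, 1], by decide +kernel⟩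

theorem lb_tr : ∀ w : Fin 3 → ZMod 2, w ≠ 0 → ∃ g : L32, g.1.mulVec lbv = w := by decide +kernel
theorem lb_R : ∀ g : L32, g ∈ Lc 1 ∧ g ∈ Lc 2 → g ∈ stb lbv := by decide +kernel
theorem lb_n : ∀ k ∈ stb lbv, ∀ g : L32, g ∈ Lc 1 ∧ g ∈ Lc 2 →
    k * g * k⁻¹ ∈ Lc 1 ∧ k * g * k⁻¹ ∈ Lc 2 := by decide +kernel
theorem lb_core : ∀ g ∈ stb lbv, (g ∈ Lc 1 ∧ g ∈ Lc 2) ∨
    ∃ k ∈ stb lbv, (g * (k * g * k⁻¹)) ^ 3 = 1 ∧ g * (k * g * k⁻¹) ≠ 1 := by decide +kernel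
theorem lb_irr : ∀ g : L32, g ∈ Lc 1 ∧ g ∈ Lc 2 → g ≠ 1 → ∀ r : L32, r ∈ Lc 1 ∧ r ∈ Lc 2 →
    r = 1 ∨ r = g ∨ r = lbg * g * lbg⁻¹ ∨ r = g * (lbg * g * lbg⁻¹) := by decide +kernel
theorem lb_fix : ∀ w : Fin 3 → ZMod 2, lbr0.1.mulVec w = w → lbr1.1.mulVec w = w → w = 0 ∨ w = lbv := by
  decide +kernel
theorem lb_r : (lbr0 ∈ Lc 1 ∧ lbr0 ∈ Lc 2) ∧ lbr1 ∈ Lc 1 ∧ lbr1 ∈ Lc 2 := by decide +kernel
theorem lb_cardR : Nat.card ↥(Lc 1 ⊓ Lc 2) = 2 ^ 2 :=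
  (Nat.card_eq_fintype_card (α := {g : L32 // g ∈ Lc 1 ∧ g ∈ Lc 2})).trans (by decide +kernel)
theorem lb_cardT : Nat.card ↥(stb lbv ⊓ Lc 2) = 2 ^ 3 :=
  (Nat.card_eq_fintype_card (α := {g : L32 // g ∈ stb lbv ∧ g ∈ Lc 2})).trans (by decide +kernel)
theorem card_Lc : Nat.card (Lc 2) = 24 :=
  (Nat.card_eq_fintype_card (α := {g : L32 // g ∈ Lc 2})).trans (by decide +kernel)

/-- `V` from `exists_min`, `Ext.card8`, `Ext.nat`; `z = e (1, 0, 0)`, `M ⊓ 𝐜[z]` is the preimage of the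
stabilizer `P₁ ≅ S₄` of this vector, `R` the preimage of the group of the 4 matrices `g` with
`g v - v ∈ ⟨(1,0,0)⟩`.  All fields reduce to finite checks in `L32`.  `par`: `S` is conjugate to the
preimage of the upper unitriangular group; `X₁, X₂` are the preimages of the two parabolic
subgroups (order 24, `solv23`).  `eg`: `T ⊓ 𝐂[V] ≤ M ⊓ 𝐂[V] ≤ Q = V`, `S1232` in `↥T`. -/
theorem Ext.s4tL (h : Ext L32 M Q) (h1 : Q ≠ ⊥) : ∃ V R z y, S4T M Q V R z y := by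
  obtain ⟨V, hV, hm⟩ := exists_min h.two h1 h.nQ
  have h8 := h.card8 hV hm
  have hN := h.nsl h1 n57_L32 rk_L32 ns_L32
  obtain ⟨π, ε, n⟩ := h.nt3 hV h8
  have hv : lbv ≠ 0 := by decide
  obtain ⟨y, o, hy⟩ := n.lift3 (g := lbg) (by decide +kernel) (by decide +kernel)
  have zV : ε (Multiplicative.ofAdd lbv) ∈ V := n.rng ▸ ⟨_, rfl⟩
  have z1 : ε (Multiplicative.ofAdd lbv) ≠ 1 := fun e => hv ((map_eq_one_iff _ n.inj).1 e)
  have nR : stb lbv ≤ 𝐍[Lc 1 ⊓ Lc 2] := le_normalizer_iff_cj.2 fun k hk =>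
    cj_le_iff_forall.2 (lb_n k hk)
  refine ⟨V, pre π (Lc 1 ⊓ Lc 2), ε (Multiplicative.ofAdd lbv), y, hN, hV, h8.ge, zV, z1,
    fun v hv v1 => ?_, n.two lb_cardR, n.Q_le _, n.stab lbv ▸ pre_mono π lb_R, n.stab lbv ▸ pre_norm π nR,
    fun B hB h2 h3 b hb => ?_, ?_, o, ⟨y.2, n.mem_c.2 (by rw [hy]; decide +kernel)⟩,
    fun B h2 h3 h4 => ?_, ?_, fun v ⟨hv, hc⟩ => ?_, fun U h2 h3 h4 => h.rk7 hV h8 zV z1 h2 h3 h4,
    fun S hS => ?_, fun e h2 S T hS hT h3 => ?_⟩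
  · obtain ⟨w, rfl⟩ : v ∈ ε.range := n.rng ▸ hv
    obtain ⟨g, hg⟩ := lb_tr w.toAdd (fun e => v1 (by rw [show w = 1 from e, map_one]))
    obtain ⟨m, rfl⟩ := n.sur g
    exact ⟨m, m.2, by rw [n.act, hg]; rfl⟩
  · rw [n.stab] at h2 h3
    lift b to M using pre_le π _ (h2 hb)
    refine mem_pre.2 ((lb_core _ (mem_pre.1 (h2 hb))).resolve_right fun ⟨k, hk, k3, k1⟩ => k1 ?_)
    obtain ⟨m, rfl⟩ := n.sur k
    obtain ⟨j, hj⟩ := isPGroup_iff.1 hB _ (mul_mem hb (conj_mem_of_mem_normalizer (h3 (mem_pre.2 hk)) hb))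
    have : (b * (m * b * m⁻¹)) ^ 2 ^ j = 1 := Subtype.ext hj
    replace := congrArg π this
    simp only [map_pow, map_mul, map_inv, map_one] at this
    exact eq_one_of_pow this k3 (Nat.Coprime.pow_left _ (by norm_num))
  · rw [n.stab, n.card, n.card, lb_cardR, card_stb hv]
    omega
  · refine or_iff_not_imp_left.2 fun e => le_antisymm h3 fun r hr => ?_
    obtain ⟨b, hb, b1⟩ : ∃ b ∈ B, b ∉ Q := by
      by_contra! k
      exact e (le_antisymm k h2)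
    lift b to M using pre_le π _ (h3 hb)
    lift r to M using pre_le π _ hr
    have k : ∀ c : M, (c : G) ∈ B → π r = π c → (r : G) ∈ B := fun c hc e => by
      have := mul_mem hc (h2 ((n.ker (c⁻¹ * r)).1 (by rw [map_mul, map_inv, e, inv_mul_cancel])))
      simpa using this
    have h5 := conj_mem_of_mem_normalizer h4 hb
    rcases lb_irr _ (mem_pre.1 (h3 hb)) (fun e => b1 ((n.ker b).1 e)) _ (mem_pre.1 hr) with e | e | e | e
    · exact h2 ((n.ker r).1 e)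
    · exact k b hb e
    · exact k (y * b * y⁻¹) h5 (by simp [e, hy])
    · exact k (b * (y * b * y⁻¹)) (mul_mem hb h5) (by simp [e, hy])
  · obtain ⟨r, hr⟩ := n.sur lbr0
    refine ⟨r, mem_pre.2 (by rw [hr]; exact lb_r.1), fun e => ?_⟩
    have := (n.ker (cm r y)).2 e
    rw [map_cm, hr, hy] at this
    exact absurd this (by unfold cm; decide +kernel)
  · obtain ⟨w, rfl⟩ : v ∈ ε.range := n.rng ▸ hv
    obtain ⟨w, rfl⟩ := Multiplicative.ofAdd.surjective w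
    have k : ∀ g ∈ Lc 1 ⊓ Lc 2, g.1.mulVec w = w := fun g hg => by
      obtain ⟨m, rfl⟩ := n.sur g
      exact n.mem_c.1 (mem_c1.2 (hc _ (mem_pre.2 hg)))
    rcases lb_fix w (k lbr0 lb_r.1) (k lbr1 lb_r.2) with rfl | rfl
    · exact (map_one ε).symm ▸ one_mem _
    · exact mem_zpowers _
  · have h2 := n.idx (stb lbv ⊓ Lc 2)
    rw [lb_cardT] at h2
    obtain ⟨g, hg, rfl⟩ := hS.exists_cj_eq (isSyl_of_not_dvd_relIndex (n.two lb_cardT) (pre_le π _) (by omega))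
    have s : ∀ K : Subgroup L32, Nat.card K = 24 → Group.IsSolvable cj(g, pre π K) := fun K hK =>
      have := n.solv hK
      solvable_of_surjective (MonoidHom.subgroupMap_surjective _ _)
    refine ⟨cj(g, pre π (stb lbv)), cj(g, pre π (Lc 2)), cj_mono g (pre_mono π inf_le_left),
      cj_mono g (pre_mono π inf_le_right), s _ (card_stb hv), s _ card_Lc, ?_⟩
    obtain ⟨r, hr⟩ := n.sur lbr2
    rw [← cj_sup, le_antisymm (sup_le (pre_le π _) (pre_le π _)) (n.max (card_stb hv) le_sup_left (y := r)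
      (by rw [hr]; decide +kernel) (mem_sup_right (mem_pre.2 (by rw [hr]; decide +kernel)))), cj_of_mem hg]
  · subst e
    have h4 : Q ≤ T := (hS.le_of_le_normalizer h.two h.le (hS.le.trans h.nQ)).trans h3
    refine S1232.result hT (Q.subgroupOf T) ⟨⟨⟨fun a b => Subtype.ext (Subtype.ext (hV.comm a.2 b.2))⟩⟩,
      fun a ha => Subtype.ext (by simpa [pow_two] using hV.sq _ ha)⟩
      (by rw [Nat.card_congr (subgroupOfEquivOfLe h4).toEquiv, h8]) ?_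
    rw [centralizer_subgroupOf h4, le_antisymm (fun c hc => hN.cent hV
      ⟨h2 (centralizer_le_normalizer' _ hc), hc⟩) hV.cV]

end Cfsg.Agent.Eo8
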